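import Cfsg.Agent.Fi22.Comb

/-!
# Counting for one noncommuting pair with common neighbours
-/

set_option autoImplicit false
set_option linter.unusedSectionVars false

namespace Cfsg.Agent.F22C

open Finset Cfsg.Agent.Fi22 Cfsg.Agent.Fi22.Comb

variable {X : Type*} [DecidableEq X] {D : Finset X} {N : X → Finset X} {k l κ m1 m2 : ℕ}

variable (h : Par D N k l κ m1 m2) {e c : X} (he : e ∈ D) (hc : c ∈ D) (hne : e ≠ c) (hec : c ∉ N e)
include h he hc hne hec

theorem near_sum :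
    ∑ p ∈ N c \ N e, ((N e ∩ N c ∩ N p).card : ℤ) = (N e ∩ N c).card * ((l : ℤ) - m1) := by
  set C := N e ∩ N c with hC
  have hCD : C ⊆ D := inter_subset_left.trans (h.sub e)
  have hPD : N c \ N e ⊆ D := sdiff_subset.trans (h.sub c)
  have h1 := sum_card_inter h.toGr (S := N c \ N e) (C := C) hPD hCD
  have h2 : ∑ p ∈ N c \ N e, ((C ∩ N p).card : ℤ) = ∑ a ∈ C, (((N c \ N e) ∩ N a).card : ℤ) := by exact_mod_cast h1
  rw [h2]
  have h3 : ∀ a ∈ C, (((N c \ N e) ∩ N a).card : ℤ) = (l : ℤ) - m1 := by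
    intro a ha
    have haC := ha
    rw [hC, mem_inter] at ha
    rw [card_sdiff', h.c2 c hc a ha.2]
    have h4 := card_C_inter h he hc hne hec haC
    rw [inter_comm (N e)] at h4
    rw [h4]
  rw [Finset.sum_congr rfl h3, Finset.sum_const, nsmul_eq_mul]

theorem near_sq :
    ∑ p ∈ N c \ N e, ((N e ∩ N c ∩ N p).card : ℤ) ^ 2 =
      (N e ∩ N c).card * (((l : ℤ) - m1) + m1 * ((κ : ℤ) - m2)) +
      ((N e ∩ N c).card * ((((N e ∩ N c).card : ℤ) - 1 - m1) * m1) - (N e ∩ N c).card * (m1 * ((m1 : ℤ) - 1 - m2))) := by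
  have htau := sum_tau h he hc hne hec
  set C := N e ∩ N c with hC
  have hCD : C ⊆ D := inter_subset_left.trans (h.sub e)
  have hPD : N c \ N e ⊆ D := sdiff_subset.trans (h.sub c)
  have h1 := sum_card_sq h.toGr (S := N c \ N e) (C := C) hPD hCD
  have h2 : ∑ p ∈ N c \ N e, ((C ∩ N p).card : ℤ) ^ 2 =
      ∑ a ∈ C, ∑ a' ∈ C, (((N c \ N e) ∩ (N a ∩ N a')).card : ℤ) := by exact_mod_cast h1
  rw [h2]
  have hswap : N c ∩ N e = C := by rw [hC, inter_comm]
  rw [sum_split h.toGr hCD _ (v0 := (l : ℤ) - m1) (v1 := (κ : ℤ) - m2)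
    (M := (C.card * (((C.card : ℤ) - 1 - m1) * m1) - C.card * (m1 * ((m1 : ℤ) - 1 - m2)))) (n := m1)
    (fun a ha => card_C_inter h he hc hne hec ha)]
  · intro a ha
    have haC := ha
    rw [hC, mem_inter] at ha
    rw [inter_self, card_sdiff', hswap, h.c2 c hc a ha.2, card_C_inter h he hc hne hec haC]
  · intro a ha a' ha' haa'
    have haC := ha
    have haC' := ha'
    rw [hC, mem_inter] at ha ha'
    rw [card_sdiff', hswap, card_C_inter2 h he hc hne hec haC haC' haa', ← inter_assoc,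
      h.c3 c hc a ha.2 a' ha'.2 haa']
  · have h3 : ∀ a ∈ C, ∑ a' ∈ C.filter (fun a' => a ≠ a' ∧ a' ∉ N a), (((N c \ N e) ∩ (N a ∩ N a')).card : ℤ) =
        ((C.card : ℤ) - 1 - m1) * m1 -
          ∑ a' ∈ C.filter (fun a' => a ≠ a' ∧ a' ∉ N a), ((C ∩ (N a ∩ N a')).card : ℤ) := by
      intro a ha
      have h4 : ∀ a' ∈ C.filter (fun a' => a ≠ a' ∧ a' ∉ N a),
          (((N c \ N e) ∩ (N a ∩ N a')).card : ℤ) = (m1 : ℤ) - (C ∩ (N a ∩ N a')).card := by
        intro a' ha'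
        rw [mem_filter] at ha'
        obtain ⟨ha', hn1, hn2⟩ := ha'
        rw [hC, mem_inter] at ha ha'
        rw [card_sdiff', hswap, ← inter_assoc (N c), h.m1 c hc a ha.2 a' ha'.2 hn1 hn2]
      rw [Finset.sum_congr rfl h4, Finset.sum_sub_distrib, Finset.sum_const, nsmul_eq_mul, card_nc h.toGr hCD ha,
        card_C_inter h he hc hne hec ha]
    rw [Finset.sum_congr rfl h3, Finset.sum_sub_distrib, Finset.sum_const, nsmul_eq_mul, htau]

theorem near_card : ((N c \ N e).card : ℤ) = k - (N e ∩ N c).card := by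
  have h1 := card_sdiff' (A := N c) (B := N e) (S := N c)
  have h2 : (N c \ N e) ∩ N c = N c \ N e := inter_eq_left.2 sdiff_subset
  have h3 : N c ∩ N e ∩ N c = N e ∩ N c := by
    rw [inter_comm (N c) (N e), inter_assoc, inter_self]
  rw [h2, h3, inter_self, h.c1 c hc] at h1
  exact h1

/-- for a member of the common neighbourhood -/
theorem tau_row {a : X} (ha : a ∈ N e ∩ N c) :
    ∑ a' ∈ (N e ∩ N c).filter (fun a' => a ≠ a' ∧ a' ∉ N a), ((N e ∩ N c ∩ (N a ∩ N a')).card : ℤ) =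
      (m1 * ((m1 : ℤ) - 1 - m2)) := by
  set C := N e ∩ N c with hC
  have hCD : C ⊆ D := inter_subset_left.trans (h.sub e)
  have h2 : ∀ a' ∈ C.filter (fun a' => a ≠ a' ∧ a' ∉ N a), ((C ∩ (N a ∩ N a')).card : ℤ) =
      ∑ b ∈ C, if b ∈ N a ∧ b ∈ N a' then (1 : ℤ) else 0 := by
    intro a' _
    rw [Finset.sum_ite, Finset.sum_const_zero, add_zero, Finset.sum_const, nsmul_eq_mul, mul_one]
    congr 2
    ext b
    simp only [mem_filter, mem_inter]
  rw [Finset.sum_congr rfl h2, Finset.sum_comm]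
  have h5 : ∀ b ∈ C, (∑ a' ∈ C.filter (fun a' => a ≠ a' ∧ a' ∉ N a), if b ∈ N a ∧ b ∈ N a' then (1 : ℤ) else 0) =
      if a ∈ N b then ((m1 : ℤ) - 1 - m2) else 0 := by
    intro b hb
    by_cases h3 : a ∈ N b
    · rw [if_pos h3]
      have h4 : b ∈ N a := h.symm b (hCD hb) a h3
      have h6 : (((C ∩ N b).filter fun a' => a ≠ a' ∧ a' ∉ N a).card : ℤ) = (m1 : ℤ) - 1 - m2 := by
        have ha2 : a ∈ C ∩ N b := mem_inter.2 ⟨ha, h3⟩
        rw [card_nc h.toGr (inter_subset_left.trans hCD) ha2, card_C_inter h he hc hne hec hb]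
        have h7 := card_C_inter2 h he hc hne hec hb ha h3
        rw [← inter_assoc, ← hC] at h7
        rw [h7]
      rw [← h6, Finset.sum_ite, Finset.sum_const_zero, add_zero, Finset.sum_const, nsmul_eq_mul, mul_one]
      congr 2
      ext x
      simp only [mem_filter, mem_inter]
      constructor
      · rintro ⟨⟨hx, hx2⟩, hx3⟩
        exact ⟨⟨hx, h.symm x (hCD hx) b hx3.2⟩, hx2⟩
      · rintro ⟨⟨hx, hx3⟩, hx2⟩
        exact ⟨⟨hx, hx2⟩, h4, h.symm b (hCD hb) x hx3⟩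
    · rw [if_neg h3]
      have h4 : b ∉ N a := fun hh => h3 (h.symm a (hCD ha) b hh)
      simp [h4]
  have h6 : C.filter (fun b => a ∈ N b) = C ∩ N a := by
    ext b
    rw [mem_filter]
    constructor
    · intro hb
      exact mem_inter.2 ⟨hb.1, h.symm b (hCD hb.1) a hb.2⟩
    · intro hb
      have hb' := mem_inter.1 hb
      exact ⟨hb'.1, h.symm a (hCD ha) b hb'.2⟩
  rw [Finset.sum_congr rfl h5, ← Finset.sum_filter, h6, Finset.sum_const,
    card_C_inter h he hc hne hec ha, nsmul_eq_mul]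

end Cfsg.Agent.F22C
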