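import Cfsg.Agent.F22C.Mu

/-!
# Components of the commuting graph
-/

set_option autoImplicit false
set_option linter.unusedSectionVars false
set_option linter.unusedSimpArgs false

namespace Cfsg.Agent.F22C

open Finset Cfsg.Agent.Uni

open Cfsg.Agent.ThreeTransp (perp perp_conj_iff commute_conj_iff)

open Cfsg.Agent.FW (DF NF mem_DF mem_NF mem_NF' nc_iff)

variable {G : Type*} [Group G] {D : Set G}

/-- at distance at most two in the commuting graph -/
def Cn (D : Set G) (x z : G) : Prop := x = z ∨ z ∈ perp D x ∨ ∃ t, t ∈ perp D x ∧ t ∈ perp D z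

theorem perp_symm {x y : G} (hx : x ∈ D) (h : y ∈ perp D x) : x ∈ perp D y := ⟨hx, h.2.1.symm, h.2.2.symm⟩

theorem Cn.symm {x z : G} (hx : x ∈ D) (h : Cn D x z) : Cn D z x := by
  rcases h with rfl | h | ⟨t, h1, h2⟩
  · exact Or.inl rfl
  · exact Or.inr (Or.inl (perp_symm hx h))
  · exact Or.inr (Or.inr ⟨t, h2, h1⟩)

theorem Cn.conj (hD : ∀ g : G, ∀ d ∈ D, g * d * g⁻¹ ∈ D) {x z : G} (h : Cn D x z) (g : G) :
    Cn D (g * x * g⁻¹) (g * z * g⁻¹) := by
  rcases h with rfl | h | ⟨t, h1, h2⟩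
  · exact Or.inl rfl
  · exact Or.inr (Or.inl ((perp_conj_iff hD g).2 h))
  · exact Or.inr (Or.inr ⟨g * t * g⁻¹, (perp_conj_iff hD g).2 h1, (perp_conj_iff hD g).2 h2⟩)

/-- the component -/
def Sig (D : Set G) (x : G) : Set G := {z | z ∈ D ∧ Cn D x z}

theorem nc_ne {x z : G} (h : ¬ Commute x z) : x ≠ z := fun e => h (e ▸ Commute.refl x)

variable [Finite G] (h : Loc D)
include h

theorem Cn.step {x y z : G} (hx : x ∈ D) (hy : y ∈ D) (hxy : Cn D x y) (hyz : z ∈ perp D y) : Cn D x z := by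
  classical
  by_cases hxz : x = z
  · exact Or.inl hxz
  by_cases hc : Commute x z
  · exact Or.inr (Or.inl ⟨hyz.1, Ne.symm hxz, hc⟩)
  rcases hxy with rfl | hxy | ⟨t, h1, h2⟩
  · exact absurd hyz.2.2 hc
  · exact Or.inr (Or.inr ⟨y, hxy, perp_symm hy hyz⟩)
  right; right
  by_cases hxyc : Commute x y
  · by_cases hxy : x = y
    · rw [hxy] at hc; exact absurd hyz.2.2 hc
    · exact ⟨y, ⟨hy, Ne.symm hxy, hxyc⟩, perp_symm hy hyz⟩
  have hne : x ≠ y := nc_ne hxyc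
  have hec : y ∉ NF D x := fun hh => hxyc (mem_NF.1 hh).2.2
  have h3 := h.thirty hx hy hne hec ⟨t, mem_inter.2 ⟨mem_NF.2 h1, mem_NF.2 h2⟩⟩ z
    (mem_sdiff.2 ⟨mem_NF.2 hyz, fun hh => hc (mem_NF.1 hh).2.2⟩)
  have h4 : (NF D x ∩ NF D y ∩ NF D z).Nonempty := card_pos.1 (by rw [h3]; norm_num)
  obtain ⟨s, hs⟩ := h4
  rw [mem_inter, mem_inter] at hs
  exact ⟨s, mem_NF.1 hs.1.1, mem_NF.1 hs.2⟩

theorem Cn.trans {x y z : G} (hx : x ∈ D) (hy : y ∈ D) (hz : z ∈ D) (hxy : Cn D x y) (hyz : Cn D y z) : Cn D x z := by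
  rcases hyz with rfl | hyz | ⟨t, h1, h2⟩
  · exact hxy
  · exact hxy.step h hx hy hyz
  · exact (hxy.step h hx hy h1).step h hx h1.1 (perp_symm hz h2)

omit [Finite G] h in
theorem self_mem_Sig {x : G} (hx : x ∈ D) : x ∈ Sig D x := ⟨hx, Or.inl rfl⟩

omit [Finite G] h in
theorem perp_sub_Sig {x y : G} (hy : y ∈ perp D x) : y ∈ Sig D x := ⟨hy.1, Or.inr (Or.inl hy)⟩

theorem Sig_eq {x z : G} (hx : x ∈ D) (hz : z ∈ Sig D x) : Sig D z = Sig D x := by
  ext y
  constructor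
  · rintro ⟨hy, h1⟩
    exact ⟨hy, hz.2.trans h hx hz.1 hy h1⟩
  · rintro ⟨hy, h1⟩
    exact ⟨hy, (hz.2.symm hx).trans h hz.1 hx hy h1⟩

theorem Sig_symm {x z : G} (hx : x ∈ D) (hz : z ∈ Sig D x) : x ∈ Sig D z := ⟨hx, hz.2.symm hx⟩

omit [Finite G] in
theorem conj_Sig {x z : G} (hz : z ∈ Sig D x) (g : G) : g * z * g⁻¹ ∈ Sig D (g * x * g⁻¹) :=
  ⟨h.conj g _ hz.1, hz.2.conj h.conj g⟩

/-- the braid relation within a component -/
theorem Sig_braid {x y z : G} (hy : y ∈ Sig D x) (hz : z ∈ Sig D x) (hx : x ∈ D) (hn : ¬ Commute y z) :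
    y * z * y = z * y * z := by
  have h1 : Cn D y z := (hy.2.symm hx).trans h hy.1 hx hz.1 hz.2
  rcases h1 with rfl | h1 | ⟨t, h1, h2⟩
  · exact absurd (Commute.refl _) hn
  · exact absurd h1.2.2 hn
  · exact h.braid2 h1.1 (perp_symm hy.1 h1) (perp_symm hz.1 h2) hn

theorem card_Sig {x : G} (hx : x ∈ D) : Nat.card (Sig D x) = 3510 := by
  classical
  have hp := h.par
  have hxF := mem_DF.2 hx
  set S := (DF D).filter (fun p => x ≠ p ∧ p ∉ NF D x) with hS
  have h1 := Fi22.Comb.sum_card_inter hp.toGr (S := S) (C := NF D x) (filter_subset _ _) (hp.sub x)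
  have h3 : ∀ a ∈ NF D x, (S ∩ NF D a).card = 512 := by
    intro a ha
    have haD := hp.sub x ha
    have hea := hp.symm x hxF a ha
    have : ((S ∩ NF D a).card : ℤ) = 512 := by
      rw [hS, Fi22.Comb.card_far hp.toGr (hp.sub a) hea, hp.c1 a haD, hp.c2 a haD x hea]
      norm_num
    exact_mod_cast this
  rw [Finset.sum_congr rfl h3, Finset.sum_const, hp.c1 x hxF,
    ← Finset.sum_filter_add_sum_filter_not S (fun b => (NF D x ∩ NF D b).Nonempty)] at h1
  have h5 : ∑ b ∈ S.filter (fun b => ¬ (NF D x ∩ NF D b).Nonempty), (NF D x ∩ NF D b).card = 0 := by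
    refine Finset.sum_eq_zero fun b hb => ?_
    rw [mem_filter, not_nonempty_iff_eq_empty] at hb
    rw [hb.2, card_empty]
  have h6 : ∀ b ∈ S.filter (fun b => (NF D x ∩ NF D b).Nonempty), (NF D x ∩ NF D b).card = 126 := by
    intro b hb
    rw [mem_filter, hS, mem_filter] at hb
    exact h.mu hx (mem_DF.1 hb.1.1) hb.1.2.1 hb.1.2.2 hb.2
  rw [h5, add_zero, Finset.sum_congr rfl h6, Finset.sum_const, smul_eq_mul, smul_eq_mul] at h1
  have h7 : (S.filter (fun b => (NF D x ∩ NF D b).Nonempty)).card = 2816 := by omega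
  have h8 : Sig D x = ((insert x (NF D x ∪ S.filter (fun b => (NF D x ∩ NF D b).Nonempty)) : Finset G) : Set G) := by
    ext z
    rw [Finset.mem_coe]
    constructor
    · rintro ⟨hz, h9⟩
      by_cases e1 : x = z
      · rw [e1]; exact mem_insert_self _ _
      by_cases e2 : z ∈ NF D x
      · exact mem_insert_of_mem (mem_union_left _ e2)
      refine mem_insert_of_mem (mem_union_right _ (mem_filter.2 ⟨mem_filter.2 ⟨mem_DF.2 hz, e1, e2⟩, ?_⟩))
      rcases h9 with h9 | h9 | ⟨t, h9, h10⟩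
      · exact absurd h9 e1
      · exact absurd (mem_NF.2 h9) e2
      · exact ⟨t, mem_inter.2 ⟨mem_NF.2 h9, mem_NF.2 h10⟩⟩
    · intro hz
      rcases mem_insert.1 hz with rfl | hz
      · exact self_mem_Sig hx
      rcases mem_union.1 hz with hz | hz
      · exact perp_sub_Sig (mem_NF.1 hz)
      · obtain ⟨hz, t, ht⟩ := mem_filter.1 hz
        have ht' := mem_inter.1 ht
        exact ⟨mem_DF.1 (mem_filter.1 hz).1, Or.inr (Or.inr ⟨t, mem_NF.1 ht'.1, mem_NF.1 ht'.2⟩)⟩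
  rw [Nat.card_coe_set_eq, h8, Set.ncard_coe_finset, card_insert_of_notMem, card_union_of_disjoint, h7, hp.c1 x hxF]
  · rw [Finset.disjoint_left]
    intro b hb hb'
    exact (mem_filter.1 (mem_filter.1 hb').1).2.2 hb
  · intro hh
    rcases mem_union.1 hh with hh | hh
    · exact (FW.gr D).irr x hh
    · exact (mem_filter.1 (mem_filter.1 hh).1).2.1 rfl

/-- a member of the component noncommuting with two commuting members -/
theorem exists_nc2 {x y : G} (hx : x ∈ D) (hy : y ∈ perp D x) :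
    ∃ t ∈ Sig D x, ¬ Commute x t ∧ ¬ Commute y t := by
  classical
  have hp := h.par
  have h1 := hp.c2 x (mem_DF.2 hx) y (mem_NF.2 hy)
  have h2 : (NF D x ∩ NF D y).Nonempty := card_pos.1 (by rw [h1]; norm_num)
  obtain ⟨w, hw⟩ := h2
  rw [mem_inter, mem_NF, mem_NF] at hw
  obtain ⟨F, i1, i2, ⟨Δ⟩⟩ := h.dict w hw.1.1
  have hF := Δ.hF
  obtain ⟨u, hu0, hu, e1⟩ := Δ.exists_pt (perp_symm hx hw.1)
  obtain ⟨v, hv0, hv, e2⟩ := Δ.exists_pt (perp_symm hy.1 hw.2)
  have huv : hermForm 6 F 2 u v = 0 := (Δ.commute_pt hu0 hu hv0 hv).1 (by rw [← e1, ← e2]; exact hy.2.2)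
  have hnp : Fi22.NP u v := (Δ.pt_ne_iff hu0 hu hv0 hv).1 (by rw [← e1, ← e2]; exact hy.2.1.symm)
  have hti := FW.isTI_two hF hu0 hnp hu hv huv
  obtain ⟨W, V, hb, hW⟩ := Fi22.exists_HB_of_TI hF (k := 2) (by norm_num) hti
  have hW0 : W 0 = u := by have := hW 0; simpa using this
  have hW1 : W 1 = v := by have := hW 1; simpa using this
  have r0 : hermForm 6 F 2 (V 0 + V 1) (V 0 + V 1) = 0 := by
    rw [hermForm_add_left, hermForm_add_right hF, hermForm_add_right hF, hb.vv, hb.vv, hb.vv, hb.vv]; simp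
  have r1 : hermForm 6 F 2 u (V 0 + V 1) = 1 := by
    rw [← hW0, hermForm_add_right hF, hb.uv, hb.uv, if_pos rfl, if_neg (by decide), add_zero]
  have r2 : hermForm 6 F 2 v (V 0 + V 1) = 1 := by
    rw [← hW1, hermForm_add_right hF, hb.uv, hb.uv, if_pos rfl, if_neg (by decide), zero_add]
  have rne : V 0 + V 1 ≠ 0 := by
    intro h0; rw [h0, hermForm_zero_right hF] at r1; exact zero_ne_one r1
  have hm := Δ.pt_mem rne r0
  refine ⟨Δ.pt (V 0 + V 1), ?_, ?_, ?_⟩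
  · refine ⟨hm.1, Or.inr (Or.inr ⟨w, hw.1, ?_⟩)⟩
    exact perp_symm hw.1.1 hm
  · intro hc
    rw [e1] at hc
    rw [(Δ.commute_pt hu0 hu rne r0).1 hc] at r1
    exact zero_ne_one r1
  · intro hc
    rw [e2] at hc
    rw [(Δ.commute_pt hv0 hv rne r0).1 hc] at r2
    exact zero_ne_one r2

end Cfsg.Agent.F22C
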