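import Cfsg.Agent.F22C.Inv3

/-!
# There is only one component
-/

set_option autoImplicit false
set_option linter.unusedSectionVars false
set_option linter.unusedSimpArgs false

namespace Cfsg.Agent.F22C

open Finset Cfsg.Agent.Uni

open Cfsg.Agent.ThreeTransp (perp perp_conj_iff commute_conj_iff)

variable {G : Type*} [Group G] {D : Set G} [Finite G]

section dih

/-- conjugating in the dihedral group -/
theorem dih_conj {x w : G} (hxx : x * x = 1) (hxw : x * w * x = w⁻¹) (k : ℕ) : x * w ^ k * x = (w ^ k)⁻¹ := by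
  induction k with
  | zero => rw [pow_zero, mul_one, hxx, inv_one]
  | succ k ih =>
    calc x * w ^ (k + 1) * x = x * w ^ k * 1 * w * x := by rw [pow_succ]; group
      _ = x * w ^ k * (x * x) * w * x := by rw [hxx]
      _ = (x * w ^ k * x) * (x * w * x) := by group
      _ = (w ^ k)⁻¹ * w⁻¹ := by rw [ih, hxw]
      _ = (w ^ (k + 1))⁻¹ := by rw [← mul_inv_rev, ← pow_succ']

end dih


section loc

variable (h : Loc D)
include h

theorem dih_pow {x x' : G} (hx : x ∈ D) (hx' : x' ∈ D) (k : ℕ) : x * (x * x') ^ k = ((x * x') ^ k)⁻¹ * x := by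
  have hxx := h.sq x hx
  have hxw : x * (x * x') * x = (x * x')⁻¹ := by
    rw [mul_inv_rev, h.inv hx, h.inv hx']
    calc x * (x * x') * x = (x * x) * x' * x := by group
      _ = x' * x := by rw [hxx, one_mul]
  have h1 := dih_conj hxx hxw k
  calc x * (x * x') ^ k = (x * (x * x') ^ k * x) * x⁻¹ := by group
    _ = ((x * x') ^ k)⁻¹ * x⁻¹ := by rw [h1]
    _ = ((x * x') ^ k)⁻¹ * x := by rw [h.inv hx]

theorem dih_mem {x x' : G} (hx : x ∈ D) (hx' : x' ∈ D) (m : ℕ) : x * (x * x') ^ m ∈ D := by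
  have hxx := h.sq x hx
  rcases Nat.even_or_odd m with ⟨j, hj⟩ | ⟨j, hj⟩
  · have e : x * (x * x') ^ m = ((x * x') ^ j)⁻¹ * x * ((x * x') ^ j)⁻¹⁻¹ := by
      rw [hj, pow_add, ← mul_assoc, dih_pow h hx hx', inv_inv]
    rw [e]; exact h.conj _ _ hx
  · have e : x * (x * x') ^ m = ((x * x') ^ j)⁻¹ * x' * ((x * x') ^ j)⁻¹⁻¹ := by
      have e1 : x * (x * x') = x' := by rw [← mul_assoc, hxx, one_mul]
      rw [hj, show 2 * j + 1 = j + 1 + j by ring, pow_add, pow_succ, inv_inv]
      calc x * ((x * x') ^ j * (x * x') * (x * x') ^ j) = (x * (x * x') ^ j) * (x * x') * (x * x') ^ j := by group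
        _ = ((x * x') ^ j)⁻¹ * x * (x * x') * (x * x') ^ j := by rw [dih_pow h hx hx']
        _ = ((x * x') ^ j)⁻¹ * (x * (x * x')) * (x * x') ^ j := by group
        _ = ((x * x') ^ j)⁻¹ * x' * (x * x') ^ j := by rw [e1]
    rw [e]; exact h.conj _ _ hx'

end loc

variable (h : LocP D)
include h

theorem odd_mul {x x' : G} (hx : x ∈ D) (hx' : x' ∈ D) (hn : x' ∉ Sig D x) : Odd (orderOf (x * x')) := by
  by_contra hodd
  rw [Nat.not_odd_iff_even] at hodd
  obtain ⟨m, hm⟩ := hodd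
  have hxx := h.sq x hx
  have hxx' := h.sq x' hx'
  have hyD := dih_mem h.toLoc hx hx' m
  set w := x * x' with hw
  have hpos : 0 < orderOf w := orderOf_pos w
  have hm0 : 0 < m := by omega
  set z := w ^ m with hz
  have hzz : z * z = 1 := by rw [hz, ← pow_add, ← hm, pow_orderOf_eq_one]
  have hz1 : z ≠ 1 := by
    intro e
    have := Nat.le_of_dvd hm0 (orderOf_dvd_of_pow_eq_one e)
    omega
  have hxw : x * w * x = w⁻¹ := by
    rw [hw, mul_inv_rev, h.inv hx, h.inv hx']
    calc x * (x * x') * x = (x * x) * x' * x := by group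
      _ = x' * x := by rw [hxx, one_mul]
  have hxw' : x' * w * x' = w⁻¹ := by
    rw [hw, mul_inv_rev, h.inv hx, h.inv hx']
    calc x' * (x * x') * x' = x' * x * (x' * x') := by group
      _ = x' * x := by rw [hxx', mul_one]
  have hzi : z⁻¹ = z := inv_eq_of_mul_eq_one_left hzz
  have hcx : Commute x z := by
    have h1 : x * z * x = z := by rw [hz, dih_conj hxx hxw m, ← hz, hzi]
    calc x * z = x * z * (x * x) := by rw [hxx, mul_one]
      _ = (x * z * x) * x := by group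
      _ = z * x := by rw [h1]
  have hcx' : Commute x' z := by
    have h1 : x' * z * x' = z := by rw [hz, dih_conj hxx' hxw' m, ← hz, hzi]
    calc x' * z = x' * z * (x' * x') := by rw [hxx', mul_one]
      _ = (x' * z * x') * x' := by group
      _ = z * x' := by rw [h1]
  have hyp : x * z ∈ perp D x := by
    refine ⟨hyD, fun e => hz1 ?_, (Commute.refl x).mul_right hcx⟩
    exact mul_eq_left.1 e
  have e2 : x * (x * z) = z := by rw [← mul_assoc, hxx, one_mul]
  have h3 := cent_prod_le h hx hyp (g := x') (by rw [e2]; exact hcx')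
  exact hn (mem_Sig_of_mem h hx hx' h3)

omit h in
theorem odd_root {u v : G} (hu : Odd (orderOf u)) (huv : u * u = v) : u = v ^ ((orderOf v + 1) / 2) := by
  have h1 : orderOf v = orderOf u := by
    rw [← huv, ← sq]
    exact Nat.Coprime.orderOf_pow (Nat.coprime_two_right.2 hu)
  rw [h1, ← huv, ← sq, ← pow_mul]
  obtain ⟨j, hj⟩ := hu
  rw [hj, show 2 * ((2 * j + 1 + 1) / 2) = (2 * j + 1) + 1 by omega, pow_succ, ← hj, pow_orderOf_eq_one, one_mul]

/-- **There is only one component.** -/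
theorem all_mem {x x' : G} (hx : x ∈ D) (hx' : x' ∈ D) : x' ∈ Sig D x := by
  classical
  by_contra hn
  have hL := h.toLoc
  have hne : ∀ {y}, y ∈ Sig D x' → y ∉ Sig D x := by
    intro y hy hyx
    apply hn
    have h1 := Sig_eq hL hx' hy
    have h2 := Sig_eq hL hx hyx
    rw [← h2, h1]
    exact self_mem_Sig hx'
  set X : Set G := {b | b ∈ D ∧ b * x * b⁻¹ ∈ Sig D x'} with hX
  -- the members of X are outside the component
  have hXn : ∀ b ∈ X, b ∉ Sig D x := by
    intro b hb hbs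
    have h1 : b ∈ St D x := Subgroup.subset_closure hbs
    exact hne hb.2 ((mem_St hL hx).1 h1)
  have hxx := h.sq x hx
  have hbij : Function.Bijective (fun b : ↥X => (⟨b * x * (b : G)⁻¹, b.2.2⟩ : ↥(Sig D x'))) := by
    constructor
    · rintro ⟨b, hb⟩ ⟨b', hb'⟩ he
      have he' : b * x * b⁻¹ = b' * x * b'⁻¹ := congrArg Subtype.val he
      have o1 := odd_mul h hx hb.1 (hXn b hb)
      have o2 := odd_mul h hx hb'.1 (hXn b' hb')
      have s1 : (x * b) * (x * b) = x * (b * x * b⁻¹) := by rw [h.inv hb.1]; group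
      have s2 : (x * b') * (x * b') = x * (b * x * b⁻¹) := by rw [he', h.inv hb'.1]; group
      have r1 := odd_root o1 s1
      have r2 := odd_root o2 s2
      rw [← r2] at r1
      exact Subtype.ext (mul_left_cancel r1)
    · rintro ⟨y, hy⟩
      have hyn := hne hy
      have hyy := h.sq y hy.1
      obtain ⟨j, hj⟩ := odd_mul h hx hy.1 hyn
      have hbD := dih_mem hL hx hy.1 (j + 1)
      have hb : (x * (x * y) ^ (j + 1)) * x * (x * (x * y) ^ (j + 1))⁻¹ = y := by
        have hw1 : (x * y) ^ (2 * j + 1) = 1 := by rw [← hj]; exact pow_orderOf_eq_one _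
        have e0 := dih_pow hL hx hy.1 (j + 1)
        have e1 : ((x * y) ^ (j + 1))⁻¹ * ((x * y) ^ (j + 1))⁻¹ = y * x := by
          rw [← mul_inv_rev, ← pow_add, show j + 1 + (j + 1) = (2 * j + 1) + 1 by ring, pow_succ, hw1, one_mul,
            mul_inv_rev, h.inv hx, h.inv hy.1]
        calc (x * (x * y) ^ (j + 1)) * x * (x * (x * y) ^ (j + 1))⁻¹
            = (x * (x * y) ^ (j + 1)) * x * ((x * y) ^ (j + 1))⁻¹ * x⁻¹ := by group
          _ = (((x * y) ^ (j + 1))⁻¹ * x) * x * ((x * y) ^ (j + 1))⁻¹ * x⁻¹ := by rw [e0]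
          _ = ((x * y) ^ (j + 1))⁻¹ * (x * x) * ((x * y) ^ (j + 1))⁻¹ * x⁻¹ := by group
          _ = (((x * y) ^ (j + 1))⁻¹ * ((x * y) ^ (j + 1))⁻¹) * x⁻¹ := by rw [hxx]; group
          _ = y * x * x⁻¹ := by rw [e1]
          _ = y := by group
      exact ⟨⟨x * (x * y) ^ (j + 1), hbD, by rw [hb]; exact hy⟩, Subtype.ext hb⟩
  have hcard : Nat.card ↥X = 3510 := by
    rw [← card_Sig hL hx']
    exact Nat.card_congr (Equiv.ofBijective _ hbij)
  have hXne : Nonempty ↥X := by
    exact (Nat.card_pos_iff.1 (by rw [hcard]; norm_num)).1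
  obtain ⟨b0, hb0⟩ := hXne
  have hb00 := h.sq b0 hb0.1
  set y0 := b0 * x * b0⁻¹ with hy0
  have hback : b0 * y0 * b0⁻¹ = x := by
    rw [hy0]
    calc b0 * (b0 * x * b0⁻¹) * b0⁻¹ = (b0 * b0) * x * (b0 * b0)⁻¹ := by group
      _ = x := by rw [hb00]; group
  have hswap : ∀ b ∈ X, b * y0 * b⁻¹ ∈ Sig D x := by
    intro b hb
    have hbb := h.sq b hb.1
    have h1 : y0 ∈ Sig D (b * x * b⁻¹) := by
      rw [Sig_eq hL hx' hb.2]; exact hb0.2
    have h2 := conj_Sig hL h1 b
    have e : b * (b * x * b⁻¹) * b⁻¹ = x := by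
      calc b * (b * x * b⁻¹) * b⁻¹ = (b * b) * x * (b * b)⁻¹ := by group
        _ = x := by rw [hbb]; group
    rwa [e] at h2
  have hact : ∀ b ∈ X, b0 * b * b0⁻¹ ∈ X := by
    intro b hb
    refine ⟨h.conj b0 b hb.1, ?_⟩
    have h1 := conj_Sig hL (hswap b hb) b0
    rw [← hy0, Sig_eq hL hx' hb0.2] at h1
    have e : b0 * b * b0⁻¹ * x * (b0 * b * b0⁻¹)⁻¹ = b0 * (b * y0 * b⁻¹) * b0⁻¹ := by
      have e3 : y0 = b0⁻¹ * x * b0 := by rw [hy0, h.inv hb0.1]
      rw [e3]; group
    rw [e]; exact h1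
  let f : Function.End ↥X := fun b => ⟨b0 * b * b0⁻¹, hact b b.2⟩
  have hf : ∀ b : ↥X, ((f b : ↥X) : G) = b0 * b * b0⁻¹ := fun _ => rfl
  have hff : f ^ 2 ^ 1 = 1 := by
    funext b
    apply Subtype.ext
    change ((f (f b) : ↥X) : G) = b
    rw [hf, hf]
    calc b0 * (b0 * (b : G) * b0⁻¹) * b0⁻¹ = (b0 * b0) * b * (b0 * b0)⁻¹ := by group
      _ = b := by rw [hb00]; group
  haveI := Fintype.ofFinite ↥X
  have h1 := Equiv.Perm.card_fixedPoints_modEq (p := 2) (n := 1) hff
  have h2 : Fintype.card (Function.fixedPoints f) = 1 := by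
    rw [Fintype.card_eq_one_iff]
    have hb0f : f ⟨b0, hb0⟩ = ⟨b0, hb0⟩ := Subtype.ext (by rw [hf]; group)
    refine ⟨⟨⟨b0, hb0⟩, hb0f⟩, ?_⟩
    rintro ⟨⟨b, hb⟩, hbf⟩
    apply Subtype.ext
    apply Subtype.ext
    change b = b0
    by_contra hbb
    have h3 : b0 * b * b0⁻¹ = b := congrArg Subtype.val hbf
    have hc : Commute b0 b := commute_of_conj h3
    have hbp : b ∈ perp D b0 := ⟨hb.1, hbb, hc⟩
    have hts : b0 * b ∈ St D x := by
      rw [mem_St hL hx]
      have e : b0 * b * x * (b0 * b)⁻¹ = b0 * (b * x * b⁻¹) * b0⁻¹ := by group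
      rw [e]
      have h4 : b * x * b⁻¹ ∈ Sig D y0 := by
        rw [Sig_eq hL hx' hb0.2]; exact hb.2
      have h5 := conj_Sig hL h4 b0
      rwa [hback] at h5
    have htt : (b0 * b) * (b0 * b) = 1 := by
      calc (b0 * b) * (b0 * b) = b0 * (b * b0) * b := by group
        _ = b0 * (b0 * b) * b := by rw [hc.eq]
        _ = (b0 * b0) * (b * b) := by group
        _ = 1 := by rw [hb00, h.sq b hb.1, one_mul]
    obtain ⟨y, hy, hyt⟩ := exists_comm h hx hts htt
    have h6 := cent_prod_le h hb0.1 hbp hyt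
    have h7 := mem_Sig_of_mem h hb0.1 hy.1 h6
    have h8 := Sig_symm hL hb0.1 h7
    rw [Sig_eq hL hx hy] at h8
    exact hXn b0 hb0 h8
  rw [h2, ← Nat.card_eq_fintype_card, hcard] at h1
  exact absurd h1 (by decide)

end Cfsg.Agent.F22C
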