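import Cfsg.Agent.F22C.Stab


/-!
# The centraliser of a product of two commuting members
-/

set_option autoImplicit false
set_option linter.unusedSectionVars false
set_option linter.unusedSimpArgs false

namespace Cfsg.Agent.F22C

open Finset Cfsg.Agent.Uni

open Cfsg.Agent.Fi22 (NP exists_dual rk rk_cons rk_nil line_of_perp)

open Cfsg.Agent.ThreeTransp (perp perp_conj_iff commute_conj_iff)

open Cfsg.Agent.FW (DF NF mem_DF mem_NF mem_NF' nc_iff)

theorem no_three {F : Type*} [Field F] [Fintype F] {n : ℕ} (hF : Fintype.card F = 2 ^ 2) {u v w : Fin n → F}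
    (hu0 : u ≠ 0) (hv0 : v ≠ 0) (h : NP u v) (hrk : ∀ x, rk [u, v, w] x = 0) : False := by
  obtain ⟨x, hx1, hx2⟩ := exists_dual hF hu0 h
  have h1 := hrk x
  rw [rk_cons, rk_cons, rk_cons, rk_nil, hx1, hx2, zero_smul, one_smul, zero_add, add_zero] at h1
  have hb : hermForm n F 2 x w ≠ 0 := by
    intro hb
    rw [hb, zero_smul, add_zero] at h1
    exact hv0 h1
  obtain ⟨x', hx1', hx2'⟩ := exists_dual hF hv0 (h.symm hu0)
  have h2 : v = (-hermForm n F 2 x w) • w := by
    rw [neg_smul]; exact eq_neg_of_add_eq_zero_left h1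
  have h3 : hermForm n F 2 x' w = 0 := by
    rw [h2, hermForm_smul_right] at hx1'
    rcases mul_eq_zero.1 hx1' with h4 | h4
    · exact absurd h4 (pow_ne_zero _ (neg_ne_zero.2 hb))
    · exact h4
  have h4 := hrk x'
  rw [rk_cons, rk_cons, rk_cons, rk_nil, hx1', hx2', h3, zero_smul, zero_smul, one_smul, add_zero, add_zero,
    add_zero] at h4
  exact hu0 h4

section basic

variable {G : Type*} [Group G]

theorem commute_of_mul_left {a x y : G} (h : Commute a (x * y)) (hx : Commute a x) : Commute a y := by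
  have : y = x⁻¹ * (x * y) := by group
  rw [this]; exact hx.inv_right.mul_right h

theorem commute_of_mul_right {a x y : G} (h : Commute a (x * y)) (hy : Commute a y) : Commute a x := by
  have : x = (x * y) * y⁻¹ := by group
  rw [this]; exact h.mul_right hy.inv_right

theorem odd_eq_one [Finite G] {N : Subgroup G} (hN : Odd (Nat.card N)) {a : G} (ha : a ∈ N) (haa : a * a = 1) : a = 1 := by
  have h1 := pow_card_eq_one' (x := (⟨a, ha⟩ : ↥N))
  have h2 : a ^ (Nat.card N) = 1 := congrArg Subtype.val h1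
  obtain ⟨j, hj⟩ := hN
  rw [hj, pow_succ, pow_mul, sq, haa, one_pow, one_mul] at h2
  exact h2

theorem odd_orderOf_of_mem [Finite G] {N : Subgroup G} (hN : Odd (Nat.card N)) {a : G} (ha : a ∈ N) : Odd (orderOf a) := by
  have h1 : orderOf a ∣ Nat.card N := by
    rw [← Subgroup.orderOf_mk a ha]
    exact orderOf_dvd_natCard _
  exact Odd.of_dvd_nat hN h1

theorem mem_of_sq_mem {k : G} (hk : Odd (orderOf k)) {H : Subgroup G} (h : k * k ∈ H) : k ∈ H := by
  obtain ⟨j, hj⟩ := hk
  have h1 : k = (k * k) ^ (j + 1) := by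
    rw [← sq, ← pow_mul, show 2 * (j + 1) = (2 * j + 1) + 1 by ring, pow_succ, ← hj, pow_orderOf_eq_one, one_mul]
  rw [h1]; exact pow_mem h _

theorem eq_one_of_sq {k : G} (hk : Odd (orderOf k)) (h : k * k = 1) : k = 1 := by
  have := mem_of_sq_mem hk (H := ⊥) (Subgroup.mem_bot.2 h)
  exact Subgroup.mem_bot.1 this

theorem commute_of_conj {a b : G} (h : a * b * a⁻¹ = b) : Commute a b := mul_inv_eq_iff_eq_mul.1 h

end basic

variable {G : Type*} [Group G] {D : Set G}

theorem mem_perp_of_fix (hD : ∀ g : G, ∀ d ∈ D, g * d * g⁻¹ ∈ D) {g x e : G} (hg : Commute g x) (he : e ∈ perp D x) :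
    g * e * g⁻¹ ∈ perp D x := by
  have h1 := (perp_conj_iff hD g).2 he
  have h2 : g * x * g⁻¹ = x := by rw [hg.eq, mul_inv_cancel_right]
  rwa [h2] at h1

variable [Finite G]

section loc

variable (h : Loc D)
include h

theorem pair_unique {x y x' y' : G} (hx : x ∈ D) (hy : y ∈ perp D x) (hx' : x' ∈ D) (hy' : y' ∈ perp D x')
    (he : x' * y' = x * y) (hc : Commute x x') : x' = x ∨ x' = y := by
  by_contra hcon
  push Not at hcon
  obtain ⟨n1, n2⟩ := hcon
  have h1 : Commute x' (x * y) := by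
    rw [← he]; exact (Commute.refl x').mul_right hy'.2.2
  have hx'y : Commute x' y := commute_of_mul_left h1 hc.symm
  have e1 : y' = x' * (x * y) := by
    rw [← he, ← mul_assoc, h.sq x' hx', one_mul]
  have hxy' : Commute x y' := by
    rw [e1]; exact hc.mul_right ((Commute.refl x).mul_right hy.2.2)
  have hyy' : Commute y y' := by
    rw [e1]; exact hx'y.symm.mul_right (hy.2.2.symm.mul_right (Commute.refl y))
  have ny : y' ≠ x := by
    intro e
    rw [e, ← hc.eq] at he
    exact n2 (mul_left_cancel he)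
  have p1 : x' ∈ perp D x := ⟨hx', n1, hc⟩
  have p2 : y' ∈ perp D x := ⟨hy'.1, ny, hxy'⟩
  have hprod : x' * (y' * y) = x := by
    rw [← mul_assoc, he, mul_assoc, h.sq y hy.1, mul_one]
  obtain ⟨F, i1, i2, ⟨Δ⟩⟩ := h.dict x hx
  obtain ⟨u1, a1, b1, r1⟩ := Δ.exists_pt p1
  obtain ⟨u2, a2, b2, r2⟩ := Δ.exists_pt p2
  obtain ⟨u3, a3, b3, r3⟩ := Δ.exists_pt hy
  have hl0 : ∀ u ∈ [u1, u2, u3], u ≠ 0 ∧ hermForm 6 F 2 u u = 0 := by
    simp only [List.mem_cons, List.not_mem_nil, or_false, forall_eq_or_imp, forall_eq]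
    exact ⟨⟨a1, b1⟩, ⟨a2, b2⟩, ⟨a3, b3⟩⟩
  have hcomm : ∀ a ∈ [x', y', y], ∀ b ∈ [x', y', y], Commute a b := by
    simp only [List.mem_cons, List.not_mem_nil, or_false, forall_eq_or_imp, forall_eq]
    exact ⟨⟨Commute.refl _, hy'.2.2, hx'y⟩, ⟨hy'.2.2.symm, Commute.refl _, hyy'.symm⟩,
      ⟨hx'y.symm, hyy', Commute.refl _⟩⟩
  have hl : ∀ u ∈ [u1, u2, u3], ∀ v ∈ [u1, u2, u3], hermForm 6 F 2 u v = 0 := by
    intro u hu v hv
    rw [← Δ.commute_pt (hl0 u hu).1 (hl0 u hu).2 (hl0 v hv).1 (hl0 v hv).2]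
    apply hcomm
    · have := List.mem_map_of_mem (f := Δ.pt) hu
      rw [r1, r2, r3]; simpa using this
    · have := List.mem_map_of_mem (f := Δ.pt) hv
      rw [r1, r2, r3]; simpa using this
  have key := (Δ.central_iff hl0 hl).1 (by
    intro z hz
    have e : (([u1, u2, u3]).map Δ.pt).prod = x := by
      simp only [List.map_cons, List.map_nil, List.prod_cons, List.prod_nil, mul_one]
      rw [← r1, ← r2, ← r3]; exact hprod
    rw [e]; exact hz.2.2.symm)
  refine no_three Δ.hF a1 a2 ((Δ.pt_ne_iff a1 b1 a2 b2).1 ?_) key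
  rw [← r1, ← r2]
  exact hy'.2.1.symm

theorem comm_of_comm_prod {x y c : G} (hx : x ∈ D) (hy : y ∈ perp D x) (hc : c ∈ Sig D x) (hct : Commute c (x * y)) :
    Commute c x ∧ Commute c y := by
  by_cases hcx : Commute c x
  · exact ⟨hcx, commute_of_mul_left hct hcx⟩
  exfalso
  have hcy : ¬ Commute c y := fun hh => hcx (commute_of_mul_right hct hh)
  have b1 := Sig_braid h hc (self_mem_Sig hx) hx hcx
  have b2 := Sig_braid h hc (perp_sub_Sig hy) hx hcy
  have hcc := h.sq c hc.1
  have hxx := h.sq x hx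
  have hyy := h.sq y hy.1
  have e1 : c * (x * y) * c = x * y := by
    rw [hct.eq, mul_assoc, hcc, mul_one]
  have e2 : c * (x * y) * c = 1 := by
    calc c * (x * y) * c = c * x * 1 * y * c := by group
      _ = c * x * (c * c) * y * c := by rw [hcc]
      _ = (c * x * c) * (c * y * c) := by group
      _ = (x * c * x) * (y * c * y) := by rw [b1, b2]
      _ = x * (c * (x * y) * c) * y := by group
      _ = x * (x * y) * y := by rw [e1]
      _ = (x * x) * (y * y) := by group
      _ = 1 := by rw [hxx, hyy, one_mul]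
  rw [e1] at e2
  have : y = x := by
    have h3 := eq_inv_of_mul_eq_one_right e2
    rw [h.inv hx] at h3
    exact h3
  exact hy.2.1 this

/-- the hyperbolic line -/
theorem Loc.line_of {a d e e' : G} (ha : a ∈ D) (hd : d ∈ perp D a) (he : e ∈ perp D a) (he' : e' ∈ perp D a)
    (hde : ¬ Commute d e) (hall : ∀ y ∈ perp D a, Commute y d → Commute y e → Commute y e') :
    e' = d ∨ e' = e ∨ e' = d * e * d⁻¹ := by
  obtain ⟨F, i1, i2, ⟨Δ⟩⟩ := h.dict a ha
  obtain ⟨u, hu0, hu, rfl⟩ := Δ.exists_pt hd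
  obtain ⟨v, hv0, hv, rfl⟩ := Δ.exists_pt he
  obtain ⟨w, hw0, hw, rfl⟩ := Δ.exists_pt he'
  have huv : hermForm 6 F 2 u v ≠ 0 := fun h1 => hde ((Δ.commute_pt hu0 hu hv0 hv).2 h1)
  have key := line_of_perp Δ.hF (by norm_num) hu hv hw huv hw0 (by
    intro z hz h1 h2
    by_cases hz0 : z = 0
    · rw [hz0, hermForm_zero_left]
    · rw [← Δ.commute_pt hz0 hz hw0 hw]
      exact hall _ (Δ.pt_mem hz0 hz) ((Δ.commute_pt hz0 hz hu0 hu).2 h1) ((Δ.commute_pt hz0 hz hv0 hv).2 h2))
  rcases key with h1 | h1 | h1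
  · left; exact ((Δ.pt_eq_iff hu0 hu hw0 hw).2 h1).symm
  · right; left; exact ((Δ.pt_eq_iff hv0 hv hw0 hw).2 h1).symm
  · right; right
    rw [h.pt_conj Δ hu0 hu hv0 hv]
    obtain ⟨c, hc, rfl⟩ := h1
    have h2 : v + hermForm 6 F 2 v u • u ≠ 0 := fun h2 => hw0 (by rw [h2, smul_zero])
    have h3 : hermForm 6 F 2 (v + hermForm 6 F 2 v u • u) (v + hermForm 6 F 2 v u • u) = 0 := by
      rw [← Fi22.tv_act Δ.hF hu v, act_form, hv]
    exact Δ.pt_smul h2 h3 hc

/-- Lemma B -/
theorem fix_all {x y k : G} (hx : x ∈ D) (hy : y ∈ perp D x) (hodd : Odd (orderOf k)) (hkx : Commute k x)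
    (hky : Commute k y) (hE : ∀ e ∈ perp D x, e ∈ perp D y → Commute k e) : k = 1 := by
  have hcen : ∀ d ∈ perp D x, Commute d k := by
    intro d hd
    by_cases hdy : d = y
    · rw [hdy]; exact hky.symm
    by_cases hcd : Commute y d
    · exact (hE d hd ⟨hd.1, hdy, hcd⟩).symm
    have hk' := mem_perp_of_fix h.conj hkx hd
    rcases h.line_of hx hy hd hk' hcd (by
      intro z hz h1 h2
      have hzy : z ≠ y := by rintro rfl; exact hcd h2
      have h3 := hE z hz ⟨hz.1, hzy, h1.symm⟩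
      have h4 : k * z * k⁻¹ = z := by rw [h3.eq, mul_inv_cancel_right]
      rw [← h4, commute_conj_iff]; exact h2) with h1 | h1 | h1
    · exfalso
      have h4 : k * y * k⁻¹ = y := by rw [hky.eq, mul_inv_cancel_right]
      have h5 : d = y := by
        have : k * d * k⁻¹ = k * y * k⁻¹ := by rw [h1, h4]
        exact mul_left_cancel (mul_right_cancel this)
      exact hdy h5
    · exact (commute_of_conj h1).symm
    · have h2 : (k * k) * d * (k * k)⁻¹ = d := by
        have hyi := h.inv hy.1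
        have hyy := h.sq y hy.1
        have h4 : k * y * k⁻¹ = y := by rw [hky.eq, mul_inv_cancel_right]
        calc (k * k) * d * (k * k)⁻¹ = k * (k * d * k⁻¹) * k⁻¹ := by group
          _ = k * (y * d * y⁻¹) * k⁻¹ := by rw [h1]
          _ = (k * y * k⁻¹) * (k * d * k⁻¹) * (k * y * k⁻¹)⁻¹ := by group
          _ = y * (y * d * y⁻¹) * y⁻¹ := by rw [h4, h1]
          _ = (y * y) * d * (y * y)⁻¹ := by group
          _ = d := by rw [hyy]; group
      have h3 := mem_of_sq_mem hodd (H := Subgroup.centralizer ({d} : Set G))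
        (Subgroup.mem_centralizer_singleton_iff.2 (commute_of_conj h2))
      have h4 : Commute k d := Subgroup.mem_centralizer_singleton_iff.1 h3
      exact h4.symm
  rcases h.cen x hx k hcen with h1 | h1
  · exact h1
  · exfalso
    have h2 := eq_one_of_sq hodd (by rw [h1]; exact h.sq x hx)
    exact h.ne x hx (h1 ▸ h2)

end loc

end Cfsg.Agent.F22C
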