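import Cfsg.Agent.H69.ZStar

/-!
# An involution isolated modulo a central involution
-/

set_option autoImplicit false
set_option linter.unusedSectionVars false
set_option linter.style.haveILetI false

namespace Cfsg.Agent.F22C

variable {C : Type*} [Group C] [Finite C] {t x : C}

theorem mem_zp (htt : t * t = 1) {a : C} : a ∈ Subgroup.zpowers t ↔ a = 1 ∨ a = t := by
  constructor
  · intro ha
    obtain ⟨m, rfl⟩ := Subgroup.mem_zpowers_iff.mp ha
    rcases Int.even_or_odd m with hm | hm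
    · obtain ⟨j, rfl⟩ := hm
      left
      rw [zpow_add, ← (Commute.refl t).mul_zpow, htt, one_zpow]
    · obtain ⟨j, rfl⟩ := hm
      right
      rw [zpow_add, two_mul, zpow_add, ← (Commute.refl t).mul_zpow, htt, one_zpow, one_mul, zpow_one]
  · rintro (rfl | rfl)
    · exact one_mem _
    · exact Subgroup.mem_zpowers _

/-- An involution isolated modulo a central involution. -/
theorem exists_odd_normal (ht : ∀ g : C, Commute g t) (htt : t * t = 1) (ht1 : t ≠ 1) (hxx : x * x = 1)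
    (hx1 : x ≠ 1) (hxt : x ≠ t)
    (hiso : ∀ g : C, (x * (g * x * g⁻¹) * x⁻¹ * (g * x * g⁻¹)⁻¹ = 1 ∨ x * (g * x * g⁻¹) * x⁻¹ * (g * x * g⁻¹)⁻¹ = t) →
      g * x * g⁻¹ = x ∨ g * x * g⁻¹ = x * t) :
    ∃ N : Subgroup C, N.Normal ∧ Odd (Nat.card N) ∧
      ∀ g : C, x * g * x⁻¹ * g⁻¹ ∈ N ∨ x * g * x⁻¹ * g⁻¹ * t ∈ N := by
  classical
  set Z := Subgroup.zpowers t with hZ
  haveI hZn : Z.Normal := ⟨fun n hn g => by
    rcases (mem_zp htt).1 hn with rfl | rfl
    · rw [mul_one, mul_inv_cancel]; exact one_mem _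
    · rw [(ht g).eq, mul_inv_cancel_right]; exact Subgroup.mem_zpowers _⟩
  have hcardZ : Nat.card Z = 2 := by
    rw [hZ, Nat.card_zpowers]
    exact orderOf_eq_prime (by rw [sq]; exact htt) ht1
  set π := QuotientGroup.mk' Z with hπ
  have hker : ∀ g : C, π g = 1 ↔ g = 1 ∨ g = t := by
    intro g
    rw [hπ, QuotientGroup.mk'_apply, QuotientGroup.eq_one_iff]
    exact mem_zp htt
  have hI : Cfsg.IsIsolatedInvolution (π x) := by
    constructor
    · refine orderOf_eq_prime (by rw [sq, ← map_mul, hxx, map_one]) ?_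
      intro h
      rcases (hker x).1 h with h1 | h1
      · exact hx1 h1
      · exact hxt h1
    · intro g' hg'
      obtain ⟨g, rfl⟩ := QuotientGroup.mk'_surjective Z g'
      change π g * π x * (π g)⁻¹ = π x
      have h1 : π x * (π g * π x * (π g)⁻¹) * (π x)⁻¹ * (π g * π x * (π g)⁻¹)⁻¹ = 1 := by
        have h2 : π x * (π g * π x * (π g)⁻¹) = (π g * π x * (π g)⁻¹) * π x := hg'
        rw [h2]; group
      have h3 : π (x * (g * x * g⁻¹) * x⁻¹ * (g * x * g⁻¹)⁻¹) = 1 := by
        simp only [map_mul, map_inv]; exact h1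
      have h4 := hiso g ((hker _).1 h3)
      rcases h4 with h4 | h4
      · rw [← map_inv, ← map_mul, ← map_mul, h4]
      · rw [← map_inv, ← map_mul, ← map_mul, h4, map_mul, (hker t).2 (Or.inr rfl), mul_one]
  obtain ⟨Nb, hNb, hodd, hN⟩ := Cfsg.Agent.H69.isolated_zstar hI
  set K := Nb.comap π with hK
  haveI hKn : K.Normal := hNb.comap π
  have hZK : Z ≤ K := by
    intro z hz
    have : π z = 1 := (hker z).2 ((mem_zp htt).1 hz)
    rw [hK, Subgroup.mem_comap, this]; exact one_mem _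
  set Z' := Z.subgroupOf K with hZ'
  haveI : Z'.Normal := Subgroup.Normal.subgroupOf hZn K
  have hidx : Z'.index = Nat.card Nb := by
    have h1 : Z'.index = Z.relIndex K := rfl
    have h2 : Z = (⊥ : Subgroup (C ⧸ Z)).comap π := by
      rw [MonoidHom.comap_bot, hπ, QuotientGroup.ker_mk']
    have h3 : ((⊥ : Subgroup (C ⧸ Z)).comap π).relIndex (Nb.comap π) = (⊥ : Subgroup (C ⧸ Z)).relIndex Nb := by
      rw [Subgroup.relIndex_comap, Subgroup.map_comap_eq_self_of_surjective (QuotientGroup.mk'_surjective Z)]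
    rw [h1]
    conv_lhs => rw [h2]
    rw [hK]
    rw [h3, Subgroup.relIndex_bot_left]
  have hcZ' : Nat.card Z' = 2 := by
    rw [← hcardZ]
    exact Nat.card_congr (Subgroup.subgroupOfEquivOfLe hZK).toEquiv
  obtain ⟨H, hH⟩ := Subgroup.exists_right_complement'_of_coprime (N := Z') (by
    rw [hcZ', hidx]
    exact (Nat.coprime_two_left).2 hodd)
  have hcH : Nat.card H = Nat.card Nb := by
    have h1 := hH.index_eq_card
    have h2 := hH.symm.index_eq_card
    rw [← hidx]
    first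
      | exact h1.symm
      | exact h2.symm
  have hdec : ∀ k ∈ K, (∃ h ∈ H.map K.subtype, k = h) ∨ (∃ h ∈ H.map K.subtype, k = t * h) := by
    intro k hk
    obtain ⟨⟨z, h⟩, hzh⟩ := hH.surjective ⟨k, hk⟩
    have hz : ((z : ↥K) : C) ∈ Z := z.2
    have e : k = ((z : ↥K) : C) * ((h : ↥K) : C) := (congrArg Subtype.val hzh).symm
    have hh : ((h : ↥K) : C) ∈ H.map K.subtype := ⟨h, h.2, rfl⟩
    rcases (mem_zp htt).1 hz with h1 | h1
    · left; exact ⟨_, hh, by rw [e, h1, one_mul]⟩
    · right; exact ⟨_, hh, by rw [e, h1]⟩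
  have hcm : Nat.card (H.map K.subtype) = Nat.card Nb := by
    rw [← hcH]
    exact Nat.card_congr (H.equivMapOfInjective _ K.subtype_injective).symm.toEquiv
  have hpow : ∀ n ∈ H.map K.subtype, n ^ (Nat.card Nb) = 1 := by
    intro n hn
    have := pow_card_eq_one' (x := (⟨n, hn⟩ : ↥(H.map K.subtype)))
    rw [hcm] at this
    exact congrArg Subtype.val this
  refine ⟨H.map K.subtype, ⟨fun n hn g => ?_⟩, by rw [hcm]; exact hodd, fun g => ?_⟩
  · have hnK : n ∈ K := Subgroup.map_subtype_le H hn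
    rcases hdec _ (hKn.conj_mem n hnK g) with ⟨h, hh, e⟩ | ⟨h, hh, e⟩
    · rw [e]; exact hh
    · exfalso
      have h1 : (g * n * g⁻¹) ^ (Nat.card Nb) = 1 := by
        rw [conj_pow, hpow n hn, mul_one, mul_inv_cancel]
      rw [e, ((ht h).symm).mul_pow, hpow h hh, mul_one] at h1
      obtain ⟨j, hj⟩ := hodd
      rw [hj, pow_succ, pow_mul, sq, htt, one_pow, one_mul] at h1
      exact ht1 h1
  · have h1 : x * g * x⁻¹ * g⁻¹ ∈ K := by
      rw [hK, Subgroup.mem_comap]
      have := hN (π g)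
      simp only [map_mul, map_inv]
      exact this
    rcases hdec _ h1 with ⟨h, hh, e⟩ | ⟨h, hh, e⟩
    · left; rw [e]; exact hh
    · right
      rw [e, ← (ht h).eq, mul_assoc, htt, mul_one]
      exact hh

end Cfsg.Agent.F22C
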