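import Cfsg.Agent.F22C.Inv
import Cfsg.Agent.F22C.ZOdd

/-!
# The centraliser of a product of two commuting members, continued
-/

set_option autoImplicit false
set_option linter.unusedSectionVars false
set_option linter.unusedSimpArgs false

namespace Cfsg.Agent.F22C

open Finset Cfsg.Agent.Uni

open Cfsg.Agent.Fi22 (NP)

open Cfsg.Agent.ThreeTransp (perp perp_conj_iff commute_conj_iff)

open Cfsg.Agent.FW (DF NF mem_DF mem_NF mem_NF' nc_iff)

variable {G : Type*} [Group G] {D : Set G} [Finite G]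

/-- the odd normal subgroup of the centraliser of the product -/
structure IsN (x y : G) (N : Subgroup G) : Prop where
  odd : Odd (Nat.card N)
  le : ∀ n ∈ N, Commute n (x * y)
  norm : ∀ g : G, Commute g (x * y) → ∀ n ∈ N, g * n * g⁻¹ ∈ N
  comm : ∀ g : G, Commute g (x * y) → x * g * x⁻¹ * g⁻¹ ∈ N ∨ x * g * x⁻¹ * g⁻¹ * (x * y) ∈ N

section P

variable (h : LocP D)
include h

theorem iso_pair {x y g : G} (hx : x ∈ D) (hy : y ∈ perp D x) (hg : Commute g (x * y))
    (hh : x * (g * x * g⁻¹) * x⁻¹ * (g * x * g⁻¹)⁻¹ = 1 ∨ x * (g * x * g⁻¹) * x⁻¹ * (g * x * g⁻¹)⁻¹ = x * y) :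
    g * x * g⁻¹ = x ∨ g * x * g⁻¹ = y := by
  set b := g * x * g⁻¹ with hb
  have hbD : b ∈ D := h.conj g x hx
  have hb' : g * y * g⁻¹ ∈ perp D b := (perp_conj_iff h.conj g).2 hy
  have hgt : g * (x * y) * g⁻¹ = x * y := by rw [hg.eq, mul_inv_cancel_right]
  have hbb : b * (g * y * g⁻¹) = x * y := by
    rw [← hgt, hb]; group
  have hxt : Commute x (x * y) := (Commute.refl x).mul_right hy.2.2
  have hbt : Commute b (x * y) := (hg.mul_left hxt).mul_left hg.inv_left
  rcases hh with h1 | h1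
  · have hc : Commute x b := by
      have h2 : x * b * x⁻¹ = b := mul_inv_eq_one.1 h1
      exact commute_of_conj h2
    exact pair_unique h.toLoc hx hy hbD hb' hbb hc
  · exfalso
    have h2 : b * x⁻¹ * b⁻¹ = y := by
      have : x * (b * x⁻¹ * b⁻¹) = x * y := by rw [← h1]; group
      exact mul_left_cancel this
    have h3 : b * x * b⁻¹ = y := by
      rw [h.inv hx] at h2; exact h2
    have h4 : b ∈ St D x := (mem_St h.toLoc hx).2 (by rw [h3]; exact perp_sub_Sig hy)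
    have h5 := mem_Sig_of_mem h hx hbD h4
    have h6 := (comm_of_comm_prod h.toLoc hx hy h5 hbt).1
    rw [h6.eq, mul_inv_cancel_right] at h3
    exact hy.2.1 h3.symm

theorem exists_N {x y : G} (hx : x ∈ D) (hy : y ∈ perp D x) : ∃ N : Subgroup G, IsN x y N := by
  set C := Subgroup.centralizer ({x * y} : Set G) with hC
  have hmem : ∀ g : G, g ∈ C ↔ Commute g (x * y) := fun g => Subgroup.mem_centralizer_singleton_iff
  have hxt : Commute x (x * y) := (Commute.refl x).mul_right hy.2.2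
  have hxx := h.sq x hx
  have hyy := h.sq y hy.1
  have htt : (x * y) * (x * y) = 1 := by
    calc (x * y) * (x * y) = x * (y * x) * y := by group
      _ = x * (x * y) * y := by rw [hy.2.2.eq]
      _ = (x * x) * (y * y) := by group
      _ = 1 := by rw [hxx, hyy, one_mul]
  have ht1 : x * y ≠ 1 := by
    intro e
    have h3 := eq_inv_of_mul_eq_one_right e
    rw [h.inv hx] at h3
    exact hy.2.1 h3
  obtain ⟨N, hN1, hN2, hN3⟩ := exists_odd_normal (C := ↥C) (t := ⟨x * y, (hmem _).2 (Commute.refl _)⟩)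
    (x := ⟨x, (hmem _).2 hxt⟩) (fun g => Subtype.ext ((hmem _).1 g.2)) (Subtype.ext htt)
    (fun e => ht1 (congrArg Subtype.val e)) (Subtype.ext hxx) (fun e => h.ne x hx (congrArg Subtype.val e))
    (fun e => by
      have e1 : x = x * y := congrArg Subtype.val e
      exact h.ne y hy.1 (left_eq_mul.1 e1)) (by
      intro g hg
      have h1 := iso_pair h hx hy ((hmem _).1 g.2) (by
        rcases hg with hg | hg
        · left; exact congrArg Subtype.val hg
        · right; exact congrArg Subtype.val hg)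
      rcases h1 with h1 | h1
      · left; exact Subtype.ext h1
      · right
        apply Subtype.ext
        change (g : G) * x * (g : G)⁻¹ = x * (x * y)
        rw [h1, ← mul_assoc, hxx, one_mul])
  refine ⟨N.map C.subtype, ?_, ?_, ?_, ?_⟩
  · have : Nat.card (N.map C.subtype) = Nat.card N :=
      Nat.card_congr (N.equivMapOfInjective _ C.subtype_injective).symm.toEquiv
    rw [this]; exact hN2
  · rintro _ ⟨n, hn, rfl⟩
    exact (hmem _).1 n.2
  · rintro g hg _ ⟨n, hn, rfl⟩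
    exact ⟨⟨g, (hmem g).2 hg⟩ * n * ⟨g, (hmem g).2 hg⟩⁻¹, hN1.conj_mem n hn _, rfl⟩
  · intro g hg
    rcases hN3 ⟨g, (hmem g).2 hg⟩ with h1 | h1
    · left; exact ⟨_, h1, rfl⟩
    · right; exact ⟨_, h1, rfl⟩

end P

section loc

variable (h : Loc D)
include h

theorem Loc.perp_comm {x y : G} (hx : x ∈ D) (hy : y ∈ perp D x) {n : G} (hn : Commute n (x * y)) :
    Commute n x ↔ Commute n y := ⟨fun hh => commute_of_mul_left hn hh, fun hh => commute_of_mul_right hn hh⟩

/-- Lemma A -/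
theorem lemA {x y n c : G} {N : Subgroup G} (hN : IsN x y N) (hn : n ∈ N) (hc : c ∈ D) (hct : Commute c (x * y))
    (hcc : Commute (n * c * n⁻¹) c) : n * c * n⁻¹ = c := by
  have hcs := h.sq c hc
  have hci := h.inv hc
  have h1 : n * c * n⁻¹ * c⁻¹ ∈ N := by
    have h2 := mul_mem hn (hN.norm c hct n⁻¹ (inv_mem hn))
    have e : n * c * n⁻¹ * c⁻¹ = n * (c * n⁻¹ * c⁻¹) := by group
    rw [e]; exact h2
  have h2 := odd_eq_one hN.odd h1 (by
    rw [hci]
    calc (n * c * n⁻¹ * c) * (n * c * n⁻¹ * c) = (n * c * n⁻¹) * (c * (n * c * n⁻¹)) * c := by group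
      _ = (n * c * n⁻¹) * ((n * c * n⁻¹) * c) * c := by rw [hcc.eq]
      _ = n * (c * c) * n⁻¹ * (c * c) := by group
      _ = 1 := by rw [hcs]; group)
  exact mul_inv_eq_one.1 h2

omit h in
theorem add_self4 {F : Type*} [Field F] [Fintype F] (hF : Fintype.card F = 2 ^ 2) (a : F) : a + a = 0 :=
  Fi22.add_self' hF a

/-- Lemma D -/
theorem lemD {x : G} (hx : x ∈ D) {F : Type} [Field F] [Fintype F] (Δ : FW.Dict D x F) {u v w z : Fin 6 → F}
    (hu0 : u ≠ 0) (hu : hermForm 6 F 2 u u = 0) (hv : hermForm 6 F 2 v v = 0) (huv : hermForm 6 F 2 u v = 0)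
    (huv0 : u + v ≠ 0) (hw0 : w ≠ 0) (hw : hermForm 6 F 2 w w = 0) (hwv : hermForm 6 F 2 w v = 0)
    (hz0 : z ≠ 0) (hz : hermForm 6 F 2 z z = 0) (hzv : hermForm 6 F 2 z v = 0) (hzw : hermForm 6 F 2 z w = 0) :
    Commute (Δ.pt z) (Δ.pt u * Δ.pt (u + v) * Δ.pt w * (Δ.pt u * Δ.pt (u + v))⁻¹) := by
  have hF := Δ.hF
  have hvu : hermForm 6 F 2 v u = 0 := (hermForm_eq_zero_comm hF).1 huv
  have hs : hermForm 6 F 2 (u + v) (u + v) = 0 := by
    rw [hermForm_add_left, hermForm_add_right hF, hermForm_add_right hF, hu, hv, huv, hvu]; ring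
  have h1 := h.pt_conj Δ huv0 hs hw0 hw
  set a := hermForm 6 F 2 w u with ha
  have h2 : hermForm 6 F 2 w (u + v) = a := by rw [hermForm_add_right hF, hwv, add_zero]
  rw [h2] at h1
  set W := w + a • (u + v) with hW
  have hW' : hermForm 6 F 2 W W = 0 := by
    rw [hW, ← h2, ← Fi22.tv_act hF hs, act_form, hw]
  have hW0 : W ≠ 0 := by
    rw [hW, ← h2, ← Fi22.tv_act hF hs]
    exact act_ne_zero hw0
  have h3 := h.pt_conj Δ hu0 hu hW0 hW'
  have h4 : hermForm 6 F 2 W u = a := by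
    rw [hW, hermForm_add_left, hermForm_smul_left, hermForm_add_left, hu, hvu, add_zero, mul_zero, add_zero]
  rw [h4] at h3
  have hX0 : W + a • u ≠ 0 := by
    have := act_ne_zero (g := Fi22.tv u) hW0
    rwa [Fi22.tv_act hF hu, h4] at this
  have hX : hermForm 6 F 2 (W + a • u) (W + a • u) = 0 := by
    have := act_form (Fi22.tv u) W W
    rw [Fi22.tv_act hF hu, h4] at this
    rw [this, hW']
  have e : Δ.pt u * Δ.pt (u + v) * Δ.pt w * (Δ.pt u * Δ.pt (u + v))⁻¹ = Δ.pt (W + a • u) := by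
    rw [← h3, ← h1]; group
  rw [e, Δ.commute_pt hz0 hz hX0 hX]
  rw [hermForm_add_right hF, hW, hermForm_add_right hF, hermForm_smul_right, hermForm_smul_right,
    hermForm_add_right hF, hzw, hzv, zero_add, add_zero]
  exact add_self4 hF _

theorem lemC {x y n : G} {N : Subgroup G} (hx : x ∈ D) (hy : y ∈ perp D x) (hN : IsN x y N) (hn : n ∈ N)
    (hnx : Commute n x) : n = 1 := by
  have hny : Commute n y := commute_of_mul_left (hN.le n hn) hnx
  apply fix_all h hx hy (odd_orderOf_of_mem hN.odd hn) hnx hny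
  intro c hc hcy
  obtain ⟨F, i1, i2, ⟨Δ⟩⟩ := h.dict x hx
  have hF := Δ.hF
  obtain ⟨u, hu0, hu, rc⟩ := Δ.exists_pt hc
  obtain ⟨v, hv0, hv, ry⟩ := Δ.exists_pt hy
  have hvu : hermForm 6 F 2 v u = 0 := by
    rw [← Δ.commute_pt hv0 hv hu0 hu, ← rc, ← ry]; exact hcy.2.2
  have huv : hermForm 6 F 2 u v = 0 := (hermForm_eq_zero_comm hF).1 hvu
  have hnp : NP v u := (Δ.pt_ne_iff hv0 hv hu0 hu).1 (by rw [← rc, ← ry]; exact hcy.2.1.symm)
  have huv0 : u + v ≠ 0 := by
    intro e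
    apply hnp 1
    rw [one_smul]
    exact Fi22.eq_of_vadd hF e
  have hs : hermForm 6 F 2 (u + v) (u + v) = 0 := by
    rw [hermForm_add_left, hermForm_add_right hF, hermForm_add_right hF, hu, hv, huv, hvu]; ring
  have hc1 : Δ.pt (u + v) ∈ perp D x := Δ.pt_mem huv0 hs
  have hc1y : Commute (Δ.pt (u + v)) y := by
    rw [ry, Δ.commute_pt huv0 hs hv0 hv, hermForm_add_left, huv, hv, add_zero]
  have hcc1 : Commute c (Δ.pt (u + v)) := by
    rw [rc, Δ.commute_pt hu0 hu huv0 hs, hermForm_add_right hF, huv, hu, add_zero]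
  have hcc1' : c ≠ Δ.pt (u + v) := by
    rw [rc, Δ.pt_ne_iff hu0 hu huv0 hs]
    intro a ha
    have hb : (a - 1) • u = v := by rw [sub_smul, one_smul, ← ha]; abel
    exact hnp.symm hv0 (a - 1) hb.symm
  have huvv : (u + v) + v = u := by
    have : v + v = 0 := by
      have h2 := add_self4 hF (1 : F)
      have : v + v = ((1 : F) + 1) • v := by rw [add_smul, one_smul]
      rw [this, h2, zero_smul]
    rw [add_assoc, this, add_zero]
  set q := c * Δ.pt (u + v) with hq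
  have hci := h.inv hc.1
  have hc1i := h.inv hc1.1
  have hqx : Commute q x := hc.2.2.symm.mul_left hc1.2.2.symm
  have hqy : Commute q y := hcy.2.2.symm.mul_left hc1y
  have hqt : Commute q (x * y) := hqx.mul_right hqy
  have hqi : q⁻¹ = Δ.pt (u + v) * Δ.pt ((u + v) + v) := by
    rw [hq, mul_inv_rev, hci, hc1i, huvv, ← rc]
  have hqi' : q⁻¹⁻¹ = Δ.pt u * Δ.pt (u + v) := by rw [inv_inv, hq, rc]
  -- L(e, q e q⁻¹) and L(e, q⁻¹ e q)
  have hL1 : ∀ e ∈ perp D x, Commute y e → ∀ z ∈ perp D x, Commute y z → Commute z e → Commute z (q * e * q⁻¹) := by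
    intro e he hye z hz hyz hze
    obtain ⟨w, hw0, hw, rfl⟩ := Δ.exists_pt he
    obtain ⟨z, hz0, hz', rfl⟩ := Δ.exists_pt hz
    rw [ry] at hye hyz
    have := lemD h hx Δ hu0 hu hv huv huv0 hw0 hw ((Δ.commute_pt hw0 hw hv0 hv).1 hye.symm)
      hz0 hz' ((Δ.commute_pt hz0 hz' hv0 hv).1 hyz.symm) ((Δ.commute_pt hz0 hz' hw0 hw).1 hze)
    rw [← rc] at this
    exact this
  have hL2 : ∀ e ∈ perp D x, Commute y e → ∀ z ∈ perp D x, Commute y z → Commute z e → Commute z (q⁻¹ * e * q) := by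
    intro e he hye z hz hyz hze
    obtain ⟨w, hw0, hw, rfl⟩ := Δ.exists_pt he
    obtain ⟨z, hz0, hz', rfl⟩ := Δ.exists_pt hz
    rw [ry] at hye hyz
    have := lemD h hx Δ huv0 hs hv (by rw [hermForm_add_left, huv, hv, add_zero]) (by rw [huvv]; exact hu0) hw0 hw
      ((Δ.commute_pt hw0 hw hv0 hv).1 hye.symm)
      hz0 hz' ((Δ.commute_pt hz0 hz' hv0 hv).1 hyz.symm) ((Δ.commute_pt hz0 hz' hw0 hw).1 hze)
    rw [← hqi, inv_inv] at this
    exact this
  set k := n * q * n⁻¹ * q⁻¹ with hk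
  have hkN : k ∈ N := by
    have h2 := mul_mem hn (hN.norm q hqt n⁻¹ (inv_mem hn))
    have e : k = n * (q * n⁻¹ * q⁻¹) := by rw [hk]; group
    rw [e]; exact h2
  have hkx : Commute k x := ((hnx.mul_left hqx).mul_left hnx.inv_left).mul_left hqx.inv_left
  have hky : Commute k y := ((hny.mul_left hqy).mul_left hny.inv_left).mul_left hqy.inv_left
  have hk1 : k = 1 := by
    apply fix_all h hx hy (odd_orderOf_of_mem hN.odd hkN) hkx hky
    intro e he hey
    have het : Commute e (x * y) := he.2.2.symm.mul_right hey.2.2.symm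
    have h1 : Commute e (q⁻¹ * e * q) := hL2 e he hey.2.2 e he hey.2.2 (Commute.refl e)
    -- transfer by n
    have hy' : n⁻¹ * y * n⁻¹⁻¹ = y := by rw [hny.inv_left.eq, mul_inv_cancel_right]
    have hyq : Commute y (q⁻¹ * e * q) := (hqy.inv_left.symm.mul_right hey.2.2).mul_right hqy.symm
    have heq : q⁻¹ * e * q⁻¹⁻¹ ∈ perp D x := mem_perp_of_fix h.conj hqx.inv_left he
    rw [inv_inv] at heq
    have hf : n⁻¹ * (q⁻¹ * e * q) * n⁻¹⁻¹ ∈ perp D x := mem_perp_of_fix h.conj hnx.inv_left heq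
    have hzz : n⁻¹ * e * n⁻¹⁻¹ ∈ perp D x := mem_perp_of_fix h.conj hnx.inv_left he
    have hyf : Commute y (n⁻¹ * (q⁻¹ * e * q) * n⁻¹⁻¹) := by
      have := (commute_conj_iff (x := y) (y := q⁻¹ * e * q) n⁻¹).2 hyq
      rwa [hy'] at this
    have hyz : Commute y (n⁻¹ * e * n⁻¹⁻¹) := by
      have := (commute_conj_iff (x := y) (y := e) n⁻¹).2 hey.2.2
      rwa [hy'] at this
    have hzf : Commute (n⁻¹ * e * n⁻¹⁻¹) (n⁻¹ * (q⁻¹ * e * q) * n⁻¹⁻¹) := (commute_conj_iff n⁻¹).2 h1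
    have h2 := hL1 _ hf hyf _ hzz hyz hzf
    have h3 := (commute_conj_iff (x := n⁻¹ * e * n⁻¹⁻¹) (y := q * (n⁻¹ * (q⁻¹ * e * q) * n⁻¹⁻¹) * q⁻¹) n).2 h2
    have e1 : n * (n⁻¹ * e * n⁻¹⁻¹) * n⁻¹ = e := by group
    have e2 : n * (q * (n⁻¹ * (q⁻¹ * e * q) * n⁻¹⁻¹) * q⁻¹) * n⁻¹ = k * e * k⁻¹ := by rw [hk]; group
    rw [e1, e2] at h3
    exact commute_of_conj (lemA h hN hkN he.1 het h3.symm)
  have hnq : n * q * n⁻¹ = q := mul_inv_eq_one.1 hk1
  have hc' : n * c * n⁻¹ ∈ perp D x := mem_perp_of_fix h.conj hnx hc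
  have hcq : Commute c q := (Commute.refl c).mul_right hcc1
  have hc'q : Commute (n * c * n⁻¹) q := by
    have := (commute_conj_iff (x := c) (y := q) n).2 hcq
    rwa [hnq] at this
  have hcS : n * c * n⁻¹ ∈ Sig D c := by
    rw [Sig_eq h hx (perp_sub_Sig hc)]
    exact perp_sub_Sig hc'
  have h3 := (comm_of_comm_prod h hc.1 (⟨hc1.1, hcc1'.symm, hcc1⟩ : Δ.pt (u + v) ∈ perp D c) hcS hc'q).1
  have hct : Commute c (x * y) := hc.2.2.symm.mul_right hcy.2.2.symm
  exact commute_of_conj (lemA h hN hn hc.1 hct h3)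

end loc

end Cfsg.Agent.F22C
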