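import Cfsg.Agent.F22C.Par
import Cfsg.Agent.FW.Tri

/-!
# Transitivity on pairs of orthogonal hyperbolic lines
-/

set_option autoImplicit false
set_option linter.unusedSectionVars false
set_option linter.unusedSimpArgs false

namespace Cfsg.Agent.F22C

open Finset Matrix Module Cfsg.Agent.Uni Cfsg.Agent.UDbl Cfsg.Agent.ThreeTransp

open Cfsg.Agent.Fi22 (HB two_eq_zero' pow_three_eq_one herm_smul_self exists_HB tv pr_tv_inj pr)

section lin

variable {F : Type*} [Field F] [Fintype F]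

/-- four vectors forming two orthogonal hyperbolic pairs -/
structure H4 (a b c d : Fin 6 → F) : Prop where
  aa : hermForm 6 F 2 a a = 0
  bb : hermForm 6 F 2 b b = 0
  cc : hermForm 6 F 2 c c = 0
  dd : hermForm 6 F 2 d d = 0
  ab : hermForm 6 F 2 a b = 1
  cd : hermForm 6 F 2 c d = 1
  ac : hermForm 6 F 2 a c = 0
  ad : hermForm 6 F 2 a d = 0
  bc : hermForm 6 F 2 b c = 0
  bd : hermForm 6 F 2 b d = 0

theorem H4.gram (hF : Fintype.card F = 2 ^ 2) {a b c d a' b' c' d' : Fin 6 → F} (h : H4 a b c d) (h' : H4 a' b' c' d') :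
    ∀ i j : Fin 4, hermForm 6 F 2 (![a, b, c, d] i) (![a, b, c, d] j) =
      hermForm 6 F 2 (![a', b', c', d'] i) (![a', b', c', d'] j) := by
  have hs := fun x y : Fin 6 → F => hermForm_symm (q := 2) hF x y
  intro i j
  fin_cases i <;> fin_cases j <;> simp only [Matrix.cons_val, Fin.isValue, Fin.zero_eta, Fin.mk_one, Fin.reduceFinMk]
  · rw [h.aa, h'.aa]
  · rw [h.ab, h'.ab]
  · rw [h.ac, h'.ac]
  · rw [h.ad, h'.ad]
  · rw [← hs a b, ← hs a' b', h.ab, h'.ab]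
  · rw [h.bb, h'.bb]
  · rw [h.bc, h'.bc]
  · rw [h.bd, h'.bd]
  · rw [← hs a c, ← hs a' c', h.ac, h'.ac]
  · rw [← hs b c, ← hs b' c', h.bc, h'.bc]
  · rw [h.cc, h'.cc]
  · rw [h.cd, h'.cd]
  · rw [← hs a d, ← hs a' d', h.ad, h'.ad]
  · rw [← hs b d, ← hs b' d', h.bd, h'.bd]
  · rw [← hs c d, ← hs c' d', h.cd, h'.cd]
  · rw [h.dd, h'.dd]

theorem H4.li (hF : Fintype.card F = 2 ^ 2) {a b c d : Fin 6 → F} (h : H4 a b c d) :
    LinearIndependent F ![a, b, c, d] := by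
  have hs := fun x y : Fin 6 → F => hermForm_symm (q := 2) hF x y
  have hba : hermForm 6 F 2 b a = 1 := by rw [← hs a b, h.ab, one_pow]
  have hdc : hermForm 6 F 2 d c = 1 := by rw [← hs c d, h.cd, one_pow]
  have hca : hermForm 6 F 2 c a = 0 := by rw [← hs a c, h.ac, zero_pow two_ne_zero]
  have hda : hermForm 6 F 2 d a = 0 := by rw [← hs a d, h.ad, zero_pow two_ne_zero]
  have hcb : hermForm 6 F 2 c b = 0 := by rw [← hs b c, h.bc, zero_pow two_ne_zero]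
  have hdb : hermForm 6 F 2 d b = 0 := by rw [← hs b d, h.bd, zero_pow two_ne_zero]
  rw [Fintype.linearIndependent_iff]
  intro g hg
  have hsum : g 0 • a + g 1 • b + g 2 • c + g 3 • d = 0 := by
    rw [← hg, Fin.sum_univ_four]; rfl
  have pair : ∀ t : Fin 6 → F, g 0 * hermForm 6 F 2 a t + g 1 * hermForm 6 F 2 b t + g 2 * hermForm 6 F 2 c t +
      g 3 * hermForm 6 F 2 d t = 0 := by
    intro t
    have h1 : hermForm 6 F 2 (g 0 • a + g 1 • b + g 2 • c + g 3 • d) t = 0 := by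
      rw [hsum, hermForm_zero_left]
    simpa only [hermForm_add_left, hermForm_smul_left] using h1
  have p1 := pair b
  have p0 := pair a
  have p3 := pair d
  have p2 := pair c
  rw [h.aa, hba, hca, hda] at p0
  rw [h.ab, h.bb, hcb, hdb] at p1
  rw [h.ac, h.bc, h.cc, hdc] at p2
  rw [h.ad, h.bd, h.cd, h.dd] at p3
  intro i
  fin_cases i
  · simpa using p1
  · simpa using p0
  · simpa using p3
  · simpa using p2

/-- two orthogonal hyperbolic pairs extend to a basis of hyperbolic pairs -/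
theorem H4.exists_HB (hF : Fintype.card F = 2 ^ 2) {a b c d : Fin 6 → F} (h : H4 a b c d) :
    ∃ w v : Fin 3 → Fin 6 → F, HB w v ∧ w 0 = a ∧ v 0 = b ∧ w 1 = c ∧ v 1 = d := by
  obtain ⟨A, B, hAB⟩ := Fi22.exists_HB hF
  have h' : H4 (A 0) (B 0) (A 1) (B 1) := by
    refine ⟨hAB.uu _ _, hAB.vv _ _, hAB.uu _ _, hAB.vv _ _, ?_, ?_, hAB.uu _ _, ?_, ?_, hAB.vv _ _⟩
    · rw [hAB.uv, if_pos rfl]
    · rw [hAB.uv, if_pos rfl]
    · rw [hAB.uv, if_neg (by decide)]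
    · rw [← hermForm_symm hF, hAB.uv, if_neg (by decide), zero_pow two_ne_zero]
  obtain ⟨k, hk⟩ := exists_GU_of_family hF (h'.li hF) (h.li hF) (h'.gram hF h)
  refine ⟨fun i => gact k (A i), fun i => gact k (B i), ⟨fun i j => ?_, fun i j => ?_, fun i j => ?_⟩, hk 0, hk 1, hk 2,
    hk 3⟩
  · rw [gact_form, hAB.uu]
  · rw [gact_form, hAB.vv]
  · rw [gact_form, hAB.uv]

theorem H4.trans (hF : Fintype.card F = 2 ^ 2) {a b c d a' b' c' d' : Fin 6 → F} (h : H4 a b c d)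
    (h' : H4 a' b' c' d') : ∃ s : SU 6 F 2, act s a = a' ∧ act s b = b' ∧ act s c = c' ∧ act s d = d' := by
  obtain ⟨w', v', hb', rfl, rfl, rfl, rfl⟩ := h'.exists_HB hF
  obtain ⟨k, hk⟩ := exists_GU_of_family hF (h.li hF) (h'.li hF) (h.gram hF h')
  have k0 : gact k a = w' 0 := hk 0
  have k1 : gact k b = v' 0 := hk 1
  have k2 : gact k c = w' 1 := hk 2
  have k3 : gact k d = v' 1 := hk 3
  have hyp : Hyp 2 (w' 2) (v' 2) := ⟨hb'.uu 2 2, hb'.vv 2 2, by rw [hb'.uv, if_pos rfl]⟩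
  set δ : F := ((detHom hF 6 k : Fˣ) : F) with hδ
  have hδ0 : δ ≠ 0 := Units.ne_zero _
  obtain ⟨r, hr, hrd⟩ := exists_gtorus hF hyp hδ0
  obtain ⟨s, hs⟩ := UTP.exists_SU_of_GU hF (r * k) (by
    rw [map_mul]
    change ((detHom hF 6 r : Fˣ) : F) * ((detHom hF 6 k : Fˣ) : F) = 1
    rw [hrd, ← hδ]
    have h3 := pow_three_eq_one hF hδ0
    field_simp)
  have hvu : ∀ i j, hermForm 6 F 2 (v' i) (w' j) = if i = j then 1 else 0 := fun i j => hb'.vu hF i j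
  refine ⟨s, ?_, ?_, ?_, ?_⟩
  · rw [hs, gact_mul, k0, hr, hb'.uu, hb'.uv, if_neg (by decide), mul_zero, mul_zero, zero_smul, zero_smul, add_zero,
      add_zero]
  · rw [hs, gact_mul, k1, hr, hb'.vv, hvu, if_neg (by decide), mul_zero, mul_zero, zero_smul, zero_smul, add_zero,
      add_zero]
  · rw [hs, gact_mul, k2, hr, hb'.uu, hb'.uv, if_neg (by decide), mul_zero, mul_zero, zero_smul, zero_smul, add_zero,
      add_zero]
  · rw [hs, gact_mul, k3, hr, hb'.vv, hvu, if_neg (by decide), mul_zero, mul_zero, zero_smul, zero_smul, add_zero,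
      add_zero]

end lin

section grp

variable {G : Type*} [Group G] {D : Set G}

/-- two mutually commuting noncommuting pairs of members commuting with `t` -/
structure Q5 (D : Set G) (t x z y y' : G) : Prop where
  ht : t ∈ D
  hx : x ∈ perp D t
  hz : z ∈ perp D t
  hy : y ∈ perp D t
  hy' : y' ∈ perp D t
  xz : ¬ Commute x z
  yy : ¬ Commute y y'
  xy : Commute x y
  xy' : Commute x y'
  zy : Commute z y
  zy' : Commute z y'

theorem Q5.conj (hD : ∀ g : G, ∀ d ∈ D, g * d * g⁻¹ ∈ D) {t x z y y' : G} (q : Q5 D t x z y y') (g : G) :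
    Q5 D (g * t * g⁻¹) (g * x * g⁻¹) (g * z * g⁻¹) (g * y * g⁻¹) (g * y' * g⁻¹) where
  ht := hD g _ q.ht
  hx := (perp_conj_iff hD g).2 q.hx
  hz := (perp_conj_iff hD g).2 q.hz
  hy := (perp_conj_iff hD g).2 q.hy
  hy' := (perp_conj_iff hD g).2 q.hy'
  xz := fun h => q.xz ((commute_conj_iff g).1 h)
  yy := fun h => q.yy ((commute_conj_iff g).1 h)
  xy := (commute_conj_iff g).2 q.xy
  xy' := (commute_conj_iff g).2 q.xy'
  zy := (commute_conj_iff g).2 q.zy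
  zy' := (commute_conj_iff g).2 q.zy'

/-- normalised vectors -/
theorem Q5.vec {t x z y y' : G} (q : Q5 D t x z y y') {F : Type} [Field F] [Fintype F] (Δ : FW.Dict D t F) :
    ∃ a b c d : Fin 6 → F, H4 a b c d ∧ a ≠ 0 ∧ b ≠ 0 ∧ c ≠ 0 ∧ d ≠ 0 ∧ x = Δ.pt a ∧ z = Δ.pt b ∧ y = Δ.pt c ∧
      y' = Δ.pt d := by
  have hF := Δ.hF
  obtain ⟨u, hu0, hu, rfl⟩ := Δ.exists_pt q.hx
  obtain ⟨v, hv0, hv, rfl⟩ := Δ.exists_pt q.hz
  obtain ⟨r, hr0, hr, rfl⟩ := Δ.exists_pt q.hy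
  obtain ⟨s, hs0, hs, rfl⟩ := Δ.exists_pt q.hy'
  have huv : hermForm 6 F 2 u v ≠ 0 := fun hh => q.xz ((Δ.commute_pt hu0 hu hv0 hv).2 hh)
  have hrs : hermForm 6 F 2 r s ≠ 0 := fun hh => q.yy ((Δ.commute_pt hr0 hr hs0 hs).2 hh)
  have hur := (Δ.commute_pt hu0 hu hr0 hr).1 q.xy
  have hus := (Δ.commute_pt hu0 hu hs0 hs).1 q.xy'
  have hvr := (Δ.commute_pt hv0 hv hr0 hr).1 q.zy
  have hvs := (Δ.commute_pt hv0 hv hs0 hs).1 q.zy'
  have hi1 := inv_ne_zero huv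
  have hi2 := inv_ne_zero hrs
  refine ⟨(hermForm 6 F 2 u v)⁻¹ • u, v, (hermForm 6 F 2 r s)⁻¹ • r, s, ⟨herm_smul_self hu _, hv, herm_smul_self hr _, hs,
    ?_, ?_, ?_, ?_, ?_, ?_⟩, smul_ne_zero hi1 hu0, hv0, smul_ne_zero hi2 hr0, hs0, (Δ.pt_smul hu0 hu hi1).symm, rfl,
    (Δ.pt_smul hr0 hr hi2).symm, rfl⟩
  · rw [hermForm_smul_left, inv_mul_cancel₀ huv]
  · rw [hermForm_smul_left, inv_mul_cancel₀ hrs]
  · rw [hermForm_smul_left, hermForm_smul_right, hur, mul_zero, mul_zero]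
  · rw [hermForm_smul_left, hus, mul_zero]
  · rw [hermForm_smul_right, hvr, mul_zero]
  · exact hvs

theorem fix_of_closure {d k : G} (hk : k ∈ Subgroup.closure (perp D d)) : k * d * k⁻¹ = d := by
  have h1 : Subgroup.closure (perp D d) ≤ Subgroup.centralizer {d} := by
    rw [Subgroup.closure_le]
    intro y hy
    rw [SetLike.mem_coe, Subgroup.mem_centralizer_singleton_iff]
    exact hy.2.2.symm
  have h2 := Subgroup.mem_centralizer_singleton_iff.1 (h1 hk)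
  rw [h2, mul_inv_cancel_right]

theorem Loc.trans5 (h : Loc D) {t x z y y' t₁ x₁ z₁ y₁ y₁' : G} (q : Q5 D t x z y y') (q₁ : Q5 D t₁ x₁ z₁ y₁ y₁') :
    ∃ g : G, g * t * g⁻¹ = t₁ ∧ g * x * g⁻¹ = x₁ ∧ g * z * g⁻¹ = z₁ ∧ g * y * g⁻¹ = y₁ ∧ g * y' * g⁻¹ = y₁' := by
  obtain ⟨g, hg⟩ := h.trans t q.ht t₁ q₁.ht
  have q2 := q.conj h.conj g
  rw [hg] at q2
  obtain ⟨F, i1, i2, ⟨Δ⟩⟩ := h.dict t₁ q₁.ht
  have hF := Δ.hF
  obtain ⟨a, b, c, d, hh, a0, b0, c0, d0, ea, eb, ec, ed⟩ := q2.vec Δ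
  obtain ⟨a', b', c', d', hh', a0', b0', c0', d0', ea', eb', ec', ed'⟩ := q₁.vec Δ
  obtain ⟨s, sa, sb, sc, sd⟩ := hh.trans hF hh'
  obtain ⟨⟨k, hk⟩, hks⟩ := Δ.surj (pr s)
  have key : ∀ {u : Fin 6 → F} {m : G}, u ≠ 0 → hermForm 6 F 2 u u = 0 → m = Δ.pt u → k * m * k⁻¹ = Δ.pt (act s u) := by
    intro u m hu0 hu hm
    have hmp : m ∈ perp D t₁ := by rw [hm]; exact Δ.pt_mem hu0 hu
    rw [(Δ.conj_of_act h.conj hk hks hmp).2]
    obtain ⟨e, he, hve⟩ := Δ.pt_vec hu0 hu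
    rw [hm, hve, act_smul]
    exact Δ.pt_smul (act_ne_zero hu0) (by rw [act_form, hu]) he
  have kk : ∀ m : G, k * g * m * (k * g)⁻¹ = k * (g * m * g⁻¹) * k⁻¹ := fun m => by group
  refine ⟨k * g, ?_, ?_, ?_, ?_, ?_⟩
  · rw [kk, hg]; exact fix_of_closure hk
  · rw [kk, key a0 hh.aa ea, sa, ea']
  · rw [kk, key b0 hh.bb eb, sb, eb']
  · rw [kk, key c0 hh.cc ec, sc, ec']
  · rw [kk, key d0 hh.dd ed, sd, ed']

theorem Loc.ext3 (h : Loc D) {t x z : G} (ht : t ∈ D) (hx : x ∈ perp D t) (hz : z ∈ perp D t) (hxz : ¬ Commute x z) :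
    ∃ y y', Q5 D t x z y y' := by
  obtain ⟨F, i1, i2, ⟨Δ⟩⟩ := h.dict t ht
  have hF := Δ.hF
  obtain ⟨u, hu0, hu, rfl⟩ := Δ.exists_pt hx
  obtain ⟨v, hv0, hv, rfl⟩ := Δ.exists_pt hz
  have huv : hermForm 6 F 2 u v ≠ 0 := fun hh => hxz ((Δ.commute_pt hu0 hu hv0 hv).2 hh)
  obtain ⟨b, hb, hw⟩ := FW.exists_perp_basis hF hu hv huv
  -- two orthogonal hyperbolic vectors in the perpendicular space
  obtain ⟨A, B, hAB⟩ := Fi22.exists_HB hF
  have hli : LinearIndependent F ![A 0, B 0] := by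
    rw [LinearIndependent.pair_iff]
    intro s r hsr
    have e1 : hermForm 6 F 2 (s • A 0 + r • B 0) (B 0) = 0 := by rw [hsr, hermForm_zero_left]
    have e2 : hermForm 6 F 2 (s • A 0 + r • B 0) (A 0) = 0 := by rw [hsr, hermForm_zero_left]
    rw [hermForm_add_left, hermForm_smul_left, hermForm_smul_left, hAB.uv, hAB.vv, if_pos rfl] at e1
    rw [hermForm_add_left, hermForm_smul_left, hermForm_smul_left, hAB.uu, hAB.vu hF, if_pos rfl] at e2
    constructor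
    · simpa using e1
    · simpa using e2
  have hli' : LinearIndependent F ![(hermForm 6 F 2 u v)⁻¹ • u, v] := by
    rw [LinearIndependent.pair_iff]
    intro s r hsr
    have e1 : hermForm 6 F 2 (s • ((hermForm 6 F 2 u v)⁻¹ • u) + r • v) v = 0 := by rw [hsr, hermForm_zero_left]
    have e2 : hermForm 6 F 2 (s • ((hermForm 6 F 2 u v)⁻¹ • u) + r • v) u = 0 := by rw [hsr, hermForm_zero_left]
    rw [hermForm_add_left, hermForm_smul_left, hermForm_smul_left, hermForm_smul_left, hv, mul_zero, add_zero,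
      inv_mul_cancel₀ huv, mul_one] at e1
    rw [hermForm_add_left, hermForm_smul_left, hermForm_smul_left, hermForm_smul_left, hu, mul_zero, mul_zero, zero_add,
      mul_eq_zero] at e2
    have hvu : hermForm 6 F 2 v u ≠ 0 := fun h0 => huv ((hermForm_eq_zero_comm hF).1 h0)
    exact ⟨e1, e2.resolve_right hvu⟩
  have hvu1 : hermForm 6 F 2 v ((hermForm 6 F 2 u v)⁻¹ • u) = 1 := by
    rw [← hermForm_symm hF, hermForm_smul_left, inv_mul_cancel₀ huv, one_pow]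
  obtain ⟨k, hk⟩ := exists_GU_of_family hF hli hli' (by
    intro i j
    fin_cases i <;> fin_cases j <;> simp only [Matrix.cons_val, Fin.isValue, Fin.zero_eta, Fin.mk_one]
    · rw [hAB.uu, herm_smul_self hu]
    · rw [hAB.uv, if_pos rfl, hermForm_smul_left, inv_mul_cancel₀ huv]
    · rw [hAB.vu hF, if_pos rfl, hvu1]
    · rw [hAB.vv, hv])
  have k0 : gact k (A 0) = (hermForm 6 F 2 u v)⁻¹ • u := hk 0
  have k1 : gact k (B 0) = v := hk 1
  have hu' : ∀ t : Fin 6 → F, hermForm 6 F 2 t (gact k (A 0)) = 0 → hermForm 6 F 2 t u = 0 := by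
    intro t ht
    rw [k0, hermForm_smul_right, mul_eq_zero] at ht
    exact ht.resolve_left (pow_ne_zero _ (inv_ne_zero huv))
  have a1 : hermForm 6 F 2 (gact k (A 1)) u = 0 := hu' _ (by rw [gact_form, hAB.uu])
  have a2 : hermForm 6 F 2 (gact k (A 1)) v = 0 := by rw [← k1, gact_form, hAB.uv, if_neg (by decide)]
  have b1 : hermForm 6 F 2 (gact k (B 1)) u = 0 := hu' _ (by rw [gact_form, hAB.vu hF, if_neg (by decide)])
  have b2 : hermForm 6 F 2 (gact k (B 1)) v = 0 := by rw [← k1, gact_form, hAB.vv]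
  have ab : hermForm 6 F 2 (gact k (A 1)) (gact k (B 1)) = 1 := by rw [gact_form, hAB.uv, if_pos rfl]
  have aa : hermForm 6 F 2 (gact k (A 1)) (gact k (A 1)) = 0 := by rw [gact_form, hAB.uu]
  have bb : hermForm 6 F 2 (gact k (B 1)) (gact k (B 1)) = 0 := by rw [gact_form, hAB.vv]
  have a0 : gact k (A 1) ≠ 0 := by
    intro h0; rw [h0, hermForm_zero_left] at ab; exact zero_ne_one ab
  have b0 : gact k (B 1) ≠ 0 := by
    intro h0; rw [h0, hermForm_zero_right hF] at ab; exact zero_ne_one ab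
  have sy := fun {p r : Fin 6 → F} (h0 : hermForm 6 F 2 p r = 0) => (hermForm_eq_zero_comm hF).1 h0
  refine ⟨Δ.pt (gact k (A 1)), Δ.pt (gact k (B 1)), ht, hx, hz, Δ.pt_mem a0 aa, Δ.pt_mem b0 bb, hxz, ?_, ?_, ?_, ?_, ?_⟩
  · rw [Δ.commute_pt a0 aa b0 bb, ab]; exact one_ne_zero
  · exact (Δ.commute_pt hu0 hu a0 aa).2 (sy a1)
  · exact (Δ.commute_pt hu0 hu b0 bb).2 (sy b1)
  · exact (Δ.commute_pt hv0 hv a0 aa).2 (sy a2)
  · exact (Δ.commute_pt hv0 hv b0 bb).2 (sy b2)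

end grp

end Cfsg.Agent.F22C
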