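import Cfsg.Agent.UTh.Main
import Cfsg.Agent.FW.Hexad

/-!
# The conjugates of an involution commuting with it are the transvections
-/

set_option autoImplicit false
set_option linter.unusedSectionVars false
set_option linter.unusedSimpArgs false

namespace Cfsg.Agent.F22C

open Finset Matrix Module Cfsg.Agent.Uni Cfsg.Agent.Fi22 Cfsg.Agent.UDbl Cfsg.Agent.UTh Cfsg.Agent.ThreeTransp

variable {G : Type*} [Group G] [Finite G] {d : G}
variable {F : Type} [Field F] [Fintype F]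
variable {φ : ↥(Subgroup.centralizer ({d} : Set G)) →* PSU 6 F 2}
variable (hF : Fintype.card F = 2 ^ 2) (D : Dbl φ (zC d))
  (hnwc : ∃ g : G, g * d * g⁻¹ ∈ Subgroup.centralizer ({d} : Set G) ∧ g * d * g⁻¹ ≠ d)
  (hperf : commutator ↥(Subgroup.centralizer ({d} : Set G)) = ⊤)

include hF D hnwc hperf

/-- number of conjugates over an element -/
theorem f_vals {w v : Fin 3 → Fin 6 → F} (h : HB w v) : ∃ f : ℕ → ℕ,
    (∀ q ∈ QW w, Nn φ (fun x => IsConj d (x : G)) q = f (rnk q)) ∧ f 1 = 1 ∧ f 2 = 0 ∧ f 3 = 0 := by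
  have hd1 : d ≠ 1 := fun h0 => D.ne (Subtype.ext h0)
  have hP : ∀ x y : ↥(Subgroup.centralizer ({d} : Set G)), IsConj d (x : G) →
    IsConj d ((y * x * y⁻¹ : ↥(Subgroup.centralizer ({d} : Set G))) : G) := conj_inv_P
  obtain ⟨f, hf2, hfr, hfm⟩ := count_formula hF D h (P := fun x => IsConj d (x : G)) hP
  rw [← ncard_AG_eq, mm_eq hF D h hnwc hperf] at hfm
  have hf0 : f 0 = 1 := by
    have h1 := hfr 1 (one_mem _)
    rw [Nn_eq D (x := 1) (by rw [map_one]; rfl), rnk_eq hF (RR_zero.2 rfl)] at h1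
    have h3 : ¬ IsConj d ((1 : ↥(Subgroup.centralizer ({d} : Set G))) : G) := fun h4 => hd1 (isConj_one_left.1 h4)
    have h5 : IsConj d ((1 * zC d : ↥(Subgroup.centralizer ({d} : Set G))) : G) := by
      rw [one_mul]; exact IsConj.refl d
    rw [if_neg h3, if_pos h5] at h1
    exact h1.symm
  refine ⟨f, hfr, ?_, ?_, ?_⟩ <;> omega

omit hnwc hperf in
theorem rr_one_tv {u : Fin 6 → F} (hu0 : u ≠ 0) (hu : hermForm 6 F 2 u u = 0) : UTh.RR 1 (tv u) := by
  refine ⟨![u], isTI_one hu0 hu, ?_⟩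
  intro x
  rw [tv_act hF hu]
  simp

omit D hnwc hperf in
theorem tv_of_rr_one {g : SU 6 F 2} (h : UTh.RR 1 g) : ∃ u : Fin 6 → F, u ≠ 0 ∧ hermForm 6 F 2 u u = 0 ∧ g = tv u := by
  obtain ⟨u, hu, hg⟩ := h
  have h0 : hermForm 6 F 2 (u 0) (u 0) = 0 := hu.2 0 0
  refine ⟨u 0, hu.1.ne_zero 0, h0, ?_⟩
  apply IsTv.eq_tv hF h0
  intro x
  have := hg x
  simpa using this

/-- each transvection has exactly one lift conjugate to `d` -/
theorem exists_lift' {u : Fin 6 → F} (hu0 : u ≠ 0) (hu : hermForm 6 F 2 u u = 0) :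
    ∃ x : ↥(Subgroup.centralizer ({d} : Set G)), φ x = pr (tv u) ∧ IsConj d (x : G) ∧ ¬ IsConj d ((x : G) * d) := by
  obtain ⟨w, v, h, hw⟩ := exists_HB_of_TI hF (k := 1) (by norm_num) (isTI_one hu0 hu)
  have hw0 : w 0 = u := by have := hw 0; simpa using this
  obtain ⟨f, hfr, h1, -, -⟩ := f_vals hF D hnwc hperf h
  have hq : tv u ∈ QW w := by
    intro i
    rw [tv_act hF hu, ← hw0, h.uu, zero_smul, add_zero]
  have h2 := hfr _ hq
  rw [rnk_eq hF (rr_one_tv hF D hu0 hu), h1] at h2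
  obtain ⟨x, hx⟩ := D.surj (pr (tv u))
  rw [Nn_eq D hx] at h2
  have hxz : ((x * zC d : ↥(Subgroup.centralizer ({d} : Set G))) : G) = (x : G) * d := rfl
  rw [hxz] at h2
  by_cases p1 : IsConj d (x : G)
  · refine ⟨x, hx, p1, fun p2 => ?_⟩
    rw [if_pos p1, if_pos p2] at h2
    omega
  · rw [if_neg p1] at h2
    by_cases p2 : IsConj d ((x : G) * d)
    · refine ⟨x * zC d, ?_, p2, ?_⟩
      · rw [map_mul, D.phz, mul_one, hx]
      · rw [hxz]
        have : (x : G) * d * d = x := by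
          have := congrArg Subtype.val D.sq
          have h3 : d * d = 1 := this
          rw [mul_assoc, h3, mul_one]
        rw [this]; exact p1
    · rw [if_neg p2] at h2
      omega

/-- the conjugates of `d` commuting with `d` -/
theorem exists_tv {x : ↥(Subgroup.centralizer ({d} : Set G))} (hx : IsConj d (x : G)) (hxd : (x : G) ≠ d) :
    ∃ u : Fin 6 → F, u ≠ 0 ∧ hermForm 6 F 2 u u = 0 ∧ φ x = pr (tv u) := by
  have hdd : d * d = 1 := congrArg Subtype.val D.sq
  have hxx : (x : G) * x = 1 := by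
    obtain ⟨c, hc⟩ := isConj_iff.1 hx
    rw [← hc]
    calc c * d * c⁻¹ * (c * d * c⁻¹) = c * (d * d) * c⁻¹ := by group
      _ = 1 := by rw [hdd]; group
  have hφ : φ x * φ x = 1 := by
    rw [← map_mul]
    have : x * x = 1 := Subtype.ext hxx
    rw [this, map_one]
  obtain ⟨w, v, h, q, hq, hqx⟩ := exists_AW_of_sq hF D hφ
  obtain ⟨f, hfr, h1, h2, h3⟩ := f_vals hF D hnwc hperf h
  have h4 := hfr q hq
  have hqx' : φ x = pr q := hqx.symm
  rw [Nn_eq D hqx', if_pos hx] at h4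
  have h6 := rnk_spec hF h hq
  have hr : rnk q = 1 := by
    have h7 : rnk q ≠ 0 := by
      intro h8
      have h9 := h6.1
      rw [h8] at h9
      have h10 : φ x = 1 := by rw [hqx', RR_zero.1 h9]; rfl
      rcases D.ker x h10 with rfl | rfl
      · have hd1 : d ≠ 1 := fun h0 => D.ne (Subtype.ext h0)
        exact hd1 (isConj_one_left.1 hx)
      · exact hxd rfl
    have h8 := h6.2
    interval_cases hh : (rnk q)
    · exact absurd rfl h7
    · rfl
    · rw [h2] at h4; omega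
    · rw [h3] at h4; omega
  rw [hr] at h6
  obtain ⟨u, hu0, hu, rfl⟩ := tv_of_rr_one hF h6.1
  exact ⟨u, hu0, hu, hqx'⟩

end Cfsg.Agent.F22C
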