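import Cfsg.Agent.F22C.Loc1

/-!
# The local structure of the class of the involution
-/

set_option autoImplicit false
set_option linter.unusedSectionVars false
set_option linter.unusedSimpArgs false

namespace Cfsg.Agent.F22C

open scoped commutatorElement
open Finset Matrix Module Cfsg.Agent.Uni Cfsg.Agent.Fi22 Cfsg.Agent.UDbl Cfsg.Agent.UTh Cfsg.Agent.ThreeTransp

/-- The local hypothesis: a conjugacy class of involutions whose commuting members form the unitary polar space. -/
structure Loc {G : Type*} [Group G] (D : Set G) : Prop where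
  conj : ∀ g : G, ∀ d ∈ D, g * d * g⁻¹ ∈ D
  trans : ∀ a ∈ D, ∀ b ∈ D, ∃ g : G, g * a * g⁻¹ = b
  nonempty : D.Nonempty
  sq : ∀ d ∈ D, d * d = 1
  ne : ∀ d ∈ D, d ≠ 1
  dict : ∀ d ∈ D, ∃ (F : Type) (_ : Field F) (_ : Fintype F), Nonempty (FW.Dict D d F)
  cent : ∀ d ∈ D, Subgroup.centralizer ({d} : Set G) = Subgroup.closure (perp D d)
  cen : ∀ d ∈ D, ∀ g : G, (∀ y ∈ perp D d, Commute y g) → g = 1 ∨ g = d

section transport

variable {G : Type*} [Group G] {D : Set G} (hD : ∀ g : G, ∀ d ∈ D, g * d * g⁻¹ ∈ D)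
include hD

theorem mem_perp_conj {d g y : G} : y ∈ perp D (g * d * g⁻¹) ↔ g⁻¹ * y * g ∈ perp D d := by
  have e : y = g * (g⁻¹ * y * g) * g⁻¹ := by group
  constructor
  · intro h
    rw [e] at h
    exact (perp_conj_iff hD g).1 h
  · intro h
    rw [e]
    exact (perp_conj_iff hD g).2 h

theorem mem_closure_conj' {d g x : G} (hx : x ∈ Subgroup.closure (perp D d)) :
    g * x * g⁻¹ ∈ Subgroup.closure (perp D (g * d * g⁻¹)) := by
  have h1 : Subgroup.closure (perp D d) ≤ (Subgroup.closure (perp D (g * d * g⁻¹))).comap (MulAut.conj g).toMonoidHom := by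
    rw [Subgroup.closure_le]
    intro y hy
    apply Subgroup.subset_closure
    exact (perp_conj_iff hD g).2 hy
  exact h1 hx

theorem mem_closure_conj {d g x : G} : x ∈ Subgroup.closure (perp D (g * d * g⁻¹)) ↔
    g⁻¹ * x * g ∈ Subgroup.closure (perp D d) := by
  constructor
  · intro h
    have h1 := mem_closure_conj' hD (g := g⁻¹) h
    have e : g⁻¹ * (g * d * g⁻¹) * g⁻¹⁻¹ = d := by group
    rw [e, inv_inv] at h1
    exact h1
  · intro h
    have h1 := mem_closure_conj' hD (g := g) h
    have e : g * (g⁻¹ * x * g) * g⁻¹ = x := by group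
    rwa [e] at h1

omit hD in
theorem comm_conj {g x y : G} : Commute (g⁻¹ * x * g) (g⁻¹ * y * g) ↔ Commute x y := by
  have h := commute_conj_iff (x := x) (y := y) g⁻¹
  rwa [inv_inv] at h

/-- the polar space of a conjugate -/
theorem dict_conj {d : G} {F : Type} [Field F] [Fintype F] (Δ : FW.Dict D d F) (g : G) :
    Nonempty (FW.Dict D (g * d * g⁻¹) F) := by
  let θ : ↥(Subgroup.closure (perp D (g * d * g⁻¹))) →* ↥(Subgroup.closure (perp D d)) :=
    ((MulAut.conj g⁻¹).toMonoidHom.comp (Subgroup.closure (perp D (g * d * g⁻¹))).subtype).codRestrict _ (fun x => by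
      have h1 := (mem_closure_conj hD).1 x.2
      have : (MulAut.conj g⁻¹).toMonoidHom.comp (Subgroup.closure (perp D (g * d * g⁻¹))).subtype x =
        g⁻¹ * (x : G) * g := by simp
      rw [this]; exact h1)
  have hθ : ∀ x, ((θ x : ↥(Subgroup.closure (perp D d))) : G) = g⁻¹ * (x : G) * g := by
    intro x
    have : ((θ x : ↥(Subgroup.closure (perp D d))) : G) = g⁻¹ * (x : G) * g⁻¹⁻¹ := rfl
    rw [this, inv_inv]
  have hm : ∀ {y}, y ∈ perp D (g * d * g⁻¹) → g⁻¹ * y * g ∈ perp D d := fun hy => (mem_perp_conj hD).1 hy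
  refine ⟨⟨Δ.ψ.comp θ, fun y => Δ.vec (g⁻¹ * y * g), Δ.hF, ?_, ?_, fun y hy => Δ.ne _ (hm hy), fun y hy => Δ.iso _ (hm hy),
    ?_, ?_, ?_, ?_⟩⟩
  · refine Δ.surj.comp ?_
    rintro ⟨x, hx⟩
    have h1 := mem_closure_conj' hD (g := g) hx
    refine ⟨⟨g * x * g⁻¹, h1⟩, ?_⟩
    apply Subtype.ext
    rw [hθ]
    show g⁻¹ * (g * x * g⁻¹) * g = x
    group
  · ext x
    rw [MonoidHom.mem_ker, MonoidHom.comp_apply, ← MonoidHom.mem_ker, Δ.ker]
    have h1 : (θ x : ↥(Subgroup.closure (perp D d))) = ⟨g⁻¹ * (x : G) * g, (mem_closure_conj hD).1 x.2⟩ :=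
      Subtype.ext (hθ x)
    rw [h1, FW.Dict.mem_center_iff']
    have h2 : x = ⟨(x : G), x.2⟩ := rfl
    rw [h2, FW.Dict.mem_center_iff']
    constructor
    · intro h y hy
      have := h _ (hm hy)
      exact comm_conj.1 this
    · intro h y hy
      have h3 : g * y * g⁻¹ ∈ perp D (g * d * g⁻¹) := (perp_conj_iff hD g).2 hy
      have h4 := comm_conj (g := g).2 (h _ h3)
      have e : g⁻¹ * (g * y * g⁻¹) * g = y := by group
      rwa [e] at h4
  · intro y hy
    rw [MonoidHom.comp_apply]
    have h1 : θ ⟨y, Subgroup.subset_closure hy⟩ = ⟨g⁻¹ * y * g, Subgroup.subset_closure (hm hy)⟩ :=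
      Subtype.ext (hθ _)
    rw [h1, Δ.map _ (hm hy)]
  · intro w hw0 hw
    obtain ⟨y, hy, c, hc, hyc⟩ := Δ.all w hw0 hw
    refine ⟨g * y * g⁻¹, (perp_conj_iff hD g).2 hy, c, hc, ?_⟩
    have e : g⁻¹ * (g * y * g⁻¹) * g = y := by group
    rw [e]; exact hyc
  · intro y hy y' hy' h
    have := Δ.inj _ (hm hy) _ (hm hy') h
    have h2 : g * (g⁻¹ * y * g) * g⁻¹ = g * (g⁻¹ * y' * g) * g⁻¹ := by rw [this]
    have e : ∀ t : G, g * (g⁻¹ * t * g) * g⁻¹ = t := fun t => by group
    rwa [e, e] at h2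
  · intro y hy y' hy'
    rw [← Δ.comm _ (hm hy) _ (hm hy')]
    exact comm_conj.symm

end transport

section main

variable {G : Type*} [Group G] [Finite G] {d : G}
variable {F : Type} [Field F] [Fintype F]
variable {φ : ↥(Subgroup.centralizer ({d} : Set G)) →* PSU 6 F 2}
variable (hF : Fintype.card F = 2 ^ 2) (D : Dbl φ (zC d))
  (hnwc : ∃ g : G, g * d * g⁻¹ ∈ Subgroup.centralizer ({d} : Set G) ∧ g * d * g⁻¹ ≠ d)
  (hperf : commutator ↥(Subgroup.centralizer ({d} : Set G)) = ⊤)

omit [Finite G] in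
theorem hconj (g : G) : ∀ x ∈ conjugatesOf d, g * x * g⁻¹ ∈ conjugatesOf d := by
  intro x hx
  exact (show IsConj d x from hx).trans (isConj_iff.2 ⟨g, rfl⟩)

omit [Finite G] in
theorem closure_le_cent : Subgroup.closure (perp (conjugatesOf d) d) ≤ Subgroup.centralizer ({d} : Set G) := by
  rw [Subgroup.closure_le]
  intro y hy
  rw [SetLike.mem_coe, Subgroup.mem_centralizer_singleton_iff]
  exact hy.2.2.symm

omit [Finite G] in
theorem mem_perp_of {x : ↥(Subgroup.centralizer ({d} : Set G))} (hx : IsConj d (x : G)) (hxd : (x : G) ≠ d) :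
    (x : G) ∈ perp (conjugatesOf d) d := by
  refine ⟨hx, hxd, ?_⟩
  exact (Subgroup.mem_centralizer_singleton_iff.1 x.2).symm

include hF D hnwc hperf

theorem pt_perp {u : Fin 6 → F} (hu0 : u ≠ 0) (hu : hermForm 6 F 2 u u = 0) :
    ∃ x : ↥(Subgroup.centralizer ({d} : Set G)), φ x = pr (tv u) ∧ (x : G) ∈ perp (conjugatesOf d) d := by
  obtain ⟨x, hx, h1, -⟩ := exists_lift' hF D hnwc hperf hu0 hu
  refine ⟨x, hx, mem_perp_of h1 ?_⟩
  intro h2
  have h3 : x = zC d := Subtype.ext h2
  rw [h3, D.phz] at hx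
  have h4 : tv u ∈ Subgroup.center (SU 6 F 2) := pr_eq_one_iff.1 hx.symm
  have h5 := tv_ne_one hF hu0 hu
  obtain ⟨y, hy⟩ := exists_hyp' hF hu0 hu
  have hyu : hermForm 6 F 2 u y = 1 := hy.2.2
  apply h5
  exact eq_one_of_center hF (by norm_num) h4 hu0 (act_fix_of_perp hF hu hu)

theorem closure_eq : Subgroup.closure (perp (conjugatesOf d) d) = Subgroup.centralizer ({d} : Set G) := by
  apply le_antisymm closure_le_cent
  let N : Subgroup ↥(Subgroup.centralizer ({d} : Set G)) :=
    (Subgroup.closure (perp (conjugatesOf d) d)).subgroupOf _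
  have hNn : N.Normal := by
    refine ⟨fun n hn c => ?_⟩
    rw [Subgroup.mem_subgroupOf] at hn ⊢
    have h1 := mem_closure_conj' (fun g x hx => hconj g x hx) (g := (c : G)) hn
    have h2 : (c : G) * d * (c : G)⁻¹ = d := by
      rw [Subgroup.mem_centralizer_singleton_iff.1 c.2, mul_inv_cancel_right]
    rw [h2] at h1
    exact h1
  have hF4 : Fintype.card F = 4 := by rw [hF]; norm_num
  have hs := psu6_simple hF4
  have hmap : N.map φ = ⊤ := by
    have hn : (N.map φ).Normal := hNn.map φ D.surj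
    rcases hs.eq_bot_or_eq_top_of_normal _ hn with h1 | h1
    · exfalso
      obtain ⟨w, v, h⟩ := exists_HB hF
      have hw0 : w 0 ≠ 0 := h.li.ne_zero 0
      obtain ⟨x, hx, hxp⟩ := pt_perp hF D hnwc hperf hw0 (h.uu 0 0)
      have h2 : φ x ∈ N.map φ := ⟨x, Subgroup.subset_closure hxp, rfl⟩
      rw [h1, Subgroup.mem_bot, hx] at h2
      have h4 : tv (w 0) ∈ Subgroup.center (SU 6 F 2) := pr_eq_one_iff.1 h2
      exact tv_ne_one hF hw0 (h.uu 0 0) (eq_one_of_center hF (by norm_num) h4 hw0 (act_fix_of_perp hF (h.uu 0 0) (h.uu 0 0)))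
    · exact h1
  have hdec : ∀ a : ↥(Subgroup.centralizer ({d} : Set G)), ∃ n ∈ N, a = n ∨ a = n * zC d := by
    intro a
    have h1 : φ a ∈ N.map φ := by rw [hmap]; trivial
    obtain ⟨n, hn, hna⟩ := h1
    obtain ⟨c, hc, hac⟩ := D.exists_c hna.symm
    refine ⟨n, hn, ?_⟩
    rcases D.ker c hc with rfl | rfl
    · left; rw [hac, mul_one]
    · right; exact hac
  have hcomm : ∀ a b : ↥(Subgroup.centralizer ({d} : Set G)), ⁅a, b⁆ ∈ N := by
    intro a b
    obtain ⟨n, hn, ha⟩ := hdec a
    obtain ⟨m, hm, hb⟩ := hdec b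
    have hz : ∀ t, Commute (zC d) t := fun t => D.cen t
    have key : ⁅a, b⁆ = ⁅n, m⁆ := by
      rcases ha with rfl | rfl <;> rcases hb with rfl | rfl
      · rfl
      · rw [commutatorElement_def, commutatorElement_def]
        have e1 : (m * zC d)⁻¹ = (zC d)⁻¹ * m⁻¹ := mul_inv_rev _ _
        rw [e1]
        calc a * (m * zC d) * a⁻¹ * ((zC d)⁻¹ * m⁻¹) = a * m * (zC d * a⁻¹) * (zC d)⁻¹ * m⁻¹ := by group
          _ = a * m * (a⁻¹ * zC d) * (zC d)⁻¹ * m⁻¹ := by rw [(hz a⁻¹).eq]
          _ = _ := by group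
      · rw [commutatorElement_def, commutatorElement_def]
        calc n * zC d * b * (n * zC d)⁻¹ * b⁻¹ = n * (zC d * b) * (zC d)⁻¹ * n⁻¹ * b⁻¹ := by group
          _ = n * (b * zC d) * (zC d)⁻¹ * n⁻¹ * b⁻¹ := by rw [(hz b).eq]
          _ = _ := by group
      · rw [commutatorElement_def, commutatorElement_def]
        calc n * zC d * (m * zC d) * (n * zC d)⁻¹ * (m * zC d)⁻¹ =
            n * (zC d * (m * zC d)) * (zC d)⁻¹ * n⁻¹ * (zC d)⁻¹ * m⁻¹ := by group
          _ = n * ((m * zC d) * zC d) * (zC d)⁻¹ * n⁻¹ * (zC d)⁻¹ * m⁻¹ := by rw [(hz (m * zC d)).eq]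
          _ = n * m * (zC d * n⁻¹) * (zC d)⁻¹ * m⁻¹ := by group
          _ = n * m * (n⁻¹ * zC d) * (zC d)⁻¹ * m⁻¹ := by rw [(hz n⁻¹).eq]
          _ = _ := by group
    rw [key, commutatorElement_def]
    exact mul_mem (mul_mem (mul_mem hn hm) (inv_mem hn)) (inv_mem hm)
  have htop : N = ⊤ := by
    rw [← top_le_iff, ← hperf, commutator_def, Subgroup.commutator_le]
    intro a _ b _
    exact hcomm a b
  intro x hx
  have h1 : (⟨x, hx⟩ : ↥(Subgroup.centralizer ({d} : Set G))) ∈ N := by rw [htop]; trivial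
  exact h1

/-- the polar space of `d` -/
theorem exists_dict_self : Nonempty (FW.Dict (conjugatesOf d) d F) := by
  have hF4 : Fintype.card F = 4 := by rw [hF]; norm_num
  have hex : ∀ y (hy : y ∈ perp (conjugatesOf d) d), ∃ u : Fin 6 → F, u ≠ 0 ∧ hermForm 6 F 2 u u = 0 ∧
      φ ⟨y, closure_le_cent (Subgroup.subset_closure hy)⟩ = pr (tv u) := by
    intro y hy
    exact exists_tv hF D hnwc hperf (x := ⟨y, closure_le_cent (Subgroup.subset_closure hy)⟩) hy.1 hy.2.1
  classical
  let vec : G → Fin 6 → F := fun y => if hy : y ∈ perp (conjugatesOf d) d then (hex y hy).choose else 0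
  have hvec : ∀ y (hy : y ∈ perp (conjugatesOf d) d), vec y ≠ 0 ∧ hermForm 6 F 2 (vec y) (vec y) = 0 ∧
      φ ⟨y, closure_le_cent (Subgroup.subset_closure hy)⟩ = pr (tv (vec y)) := by
    intro y hy
    simp only [vec, dif_pos hy]
    exact (hex y hy).choose_spec
  have hinj : ∀ y (hy : y ∈ perp (conjugatesOf d) d) y' (hy' : y' ∈ perp (conjugatesOf d) d),
      φ ⟨y, closure_le_cent (Subgroup.subset_closure hy)⟩ = φ ⟨y', closure_le_cent (Subgroup.subset_closure hy')⟩ →
      y = y' := by
    intro y hy y' hy' h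
    obtain ⟨hu0, hu, h1⟩ := hvec y hy
    obtain ⟨x, hx, hx1, hx2⟩ := exists_lift' hF D hnwc hperf hu0 hu
    have key : ∀ t (ht : t ∈ perp (conjugatesOf d) d),
        φ ⟨t, closure_le_cent (Subgroup.subset_closure ht)⟩ = pr (tv (vec y)) → t = x := by
      intro t ht h2
      obtain ⟨c, hc, hac⟩ := D.exists_c (h2.trans hx.symm)
      rcases D.ker c hc with rfl | rfl
      · rw [mul_one] at hac
        exact congrArg Subtype.val hac
      · exfalso
        apply hx2
        have h3 : t = (x : G) * d := congrArg Subtype.val hac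
        rw [← h3]; exact ht.1
    rw [key y hy h1, key y' hy' (h ▸ h1)]
  have hcl := closure_eq hF D hnwc hperf
  refine ⟨⟨φ.comp (Subgroup.inclusion closure_le_cent), vec, hF, ?_, ?_, fun y hy => (hvec y hy).1,
    fun y hy => (hvec y hy).2.1, fun y hy => (hvec y hy).2.2, ?_, ?_, ?_⟩⟩
  · refine D.surj.comp ?_
    rintro ⟨x, hx⟩
    rw [← hcl] at hx
    exact ⟨⟨x, hx⟩, rfl⟩
  · ext x
    rw [MonoidHom.mem_ker]
    constructor
    · intro h
      rw [Subgroup.mem_center_iff]
      intro y
      apply Subtype.ext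
      rcases D.ker _ h with h1 | h1
      · have h2 : (x : G) = 1 := congrArg Subtype.val h1
        show (y : G) * (x : G) = (x : G) * (y : G)
        rw [h2, mul_one, one_mul]
      · have h2 : (x : G) = d := congrArg Subtype.val h1
        show (y : G) * (x : G) = (x : G) * (y : G)
        rw [h2]
        have h3 := Subgroup.mem_centralizer_singleton_iff.1 (closure_le_cent y.2)
        exact h3
    · intro h
      by_contra hne
      apply psu6_noncomm hF4
      have hs := psu6_simple hF4
      have h1 : Subgroup.center (PSU 6 F 2) = ⊤ := by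
        rcases hs.eq_bot_or_eq_top_of_normal _ (inferInstance : (Subgroup.center (PSU 6 F 2)).Normal) with h2 | h2
        · exfalso
          apply hne
          rw [← Subgroup.mem_bot, ← h2, Subgroup.mem_center_iff]
          intro p
          obtain ⟨q, rfl⟩ := D.surj p
          have hq : (q : G) ∈ Subgroup.closure (perp (conjugatesOf d) d) := by rw [hcl]; exact q.2
          have h3 := Subgroup.mem_center_iff.1 h ⟨q, hq⟩
          have h4 : q * Subgroup.inclusion closure_le_cent x = Subgroup.inclusion closure_le_cent x * q := by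
            apply Subtype.ext
            have h5 : (q : G) * (x : G) = (x : G) * (q : G) := congrArg Subtype.val h3
            exact h5
          rw [MonoidHom.comp_apply, ← map_mul, h4, map_mul]
        · exact h2
      intro a b
      have h2 : b ∈ Subgroup.center (PSU 6 F 2) := by rw [h1]; trivial
      exact Subgroup.mem_center_iff.1 h2 a
  · intro w hw0 hw
    obtain ⟨x, hx, hxp⟩ := pt_perp hF D hnwc hperf hw0 hw
    refine ⟨x, hxp, ?_⟩
    have h1 := (hvec x hxp).2.2
    have h2 : φ ⟨(x : G), closure_le_cent (Subgroup.subset_closure hxp)⟩ = pr (tv w) := hx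
    rw [h2] at h1
    exact (pr_tv_inj hF (by norm_num) hw0 (hvec x hxp).1 hw (hvec x hxp).2.1).1 h1
  · intro y hy y' hy' h
    apply hinj y hy y' hy'
    rw [(hvec y hy).2.2, (hvec y' hy').2.2]
    exact (pr_tv_inj hF (by norm_num) (hvec y hy).1 (hvec y' hy').1 (hvec y hy).2.1 (hvec y' hy').2.1).2 h
  · intro y hy y' hy'
    rw [← pr_commute_iff hF (by norm_num) (hvec y hy).1 (hvec y' hy').1 (hvec y hy).2.1 (hvec y' hy').2.1,
      ← (hvec y hy).2.2, ← (hvec y' hy').2.2]
    constructor
    · intro h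
      have h2 : Commute (⟨y, closure_le_cent (Subgroup.subset_closure hy)⟩ : ↥(Subgroup.centralizer ({d} : Set G)))
        ⟨y', closure_le_cent (Subgroup.subset_closure hy')⟩ := Subtype.ext h
      exact h2.map φ
    · intro h
      have hy2 : y * y' * y⁻¹ ∈ perp (conjugatesOf d) d := by
        refine ⟨hconj y _ hy'.1, ?_, ?_⟩
        · intro h3
          apply hy'.2.1
          have h4 : y' = y⁻¹ * d * y := by rw [← h3]; group
          rw [h4, mul_assoc, hy.2.2.eq]; group
        · exact (hy.2.2.mul_right hy'.2.2).mul_right hy.2.2.inv_right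
      have h3 : φ ⟨y * y' * y⁻¹, closure_le_cent (Subgroup.subset_closure hy2)⟩ =
          φ ⟨y', closure_le_cent (Subgroup.subset_closure hy')⟩ := by
        have e : (⟨y * y' * y⁻¹, closure_le_cent (Subgroup.subset_closure hy2)⟩ : ↥(Subgroup.centralizer ({d} : Set G))) =
          ⟨y, closure_le_cent (Subgroup.subset_closure hy)⟩ * ⟨y', closure_le_cent (Subgroup.subset_closure hy')⟩ *
            (⟨y, closure_le_cent (Subgroup.subset_closure hy)⟩)⁻¹ := rfl
        rw [e, map_mul, map_mul, map_inv, h.eq, mul_inv_cancel_right]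
      have h4 := hinj _ hy2 _ hy' h3
      exact mul_inv_eq_iff_eq_mul.1 h4

theorem loc : Loc (conjugatesOf d) := by
  obtain ⟨Δ⟩ := exists_dict_self hF D hnwc hperf
  have hcl := closure_eq hF D hnwc hperf
  have hcj : ∀ g : G, ∀ x ∈ conjugatesOf d, g * x * g⁻¹ ∈ conjugatesOf d := fun g x hx => hconj g x hx
  have hdd : d * d = 1 := congrArg Subtype.val D.sq
  have hd1 : d ≠ 1 := fun h0 => D.ne (Subtype.ext h0)
  refine ⟨hcj, ?_, ⟨d, IsConj.refl d⟩, ?_, ?_, ?_, ?_, ?_⟩
  · intro a ha b hb
    have h1 : IsConj a b := (show IsConj d a from ha).symm.trans hb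
    exact isConj_iff.1 h1
  · intro x hx
    obtain ⟨c, rfl⟩ := isConj_iff.1 (show IsConj d x from hx)
    calc c * d * c⁻¹ * (c * d * c⁻¹) = c * (d * d) * c⁻¹ := by group
      _ = 1 := by rw [hdd]; group
  · intro x hx h1
    rw [h1] at hx
    exact hd1 (isConj_one_left.1 hx)
  · intro x hx
    obtain ⟨c, rfl⟩ := isConj_iff.1 (show IsConj d x from hx)
    exact ⟨F, inferInstance, inferInstance, dict_conj hcj Δ c⟩
  · intro x hx
    obtain ⟨c, rfl⟩ := isConj_iff.1 (show IsConj d x from hx)
    ext y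
    rw [mem_closure_conj hcj, hcl, Subgroup.mem_centralizer_singleton_iff, Subgroup.mem_centralizer_singleton_iff]
    constructor
    · intro h
      calc c⁻¹ * y * c * d = c⁻¹ * (y * (c * d * c⁻¹)) * c := by group
        _ = c⁻¹ * (c * d * c⁻¹ * y) * c := by rw [h]
        _ = d * (c⁻¹ * y * c) := by group
    · intro h
      calc y * (c * d * c⁻¹) = c * (c⁻¹ * y * c * d) * c⁻¹ := by group
        _ = c * (d * (c⁻¹ * y * c)) * c⁻¹ := by rw [h]
        _ = c * d * c⁻¹ * y := by group
  · -- the centre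
    have key : ∀ g : G, (∀ y ∈ perp (conjugatesOf d) d, Commute y g) → g = 1 ∨ g = d := by
      intro g hg
      have h1 : ∀ x ∈ Subgroup.closure (perp (conjugatesOf d) d), Commute x g := by
        intro x hx
        induction hx using Subgroup.closure_induction with
        | mem y hy => exact hg y hy
        | one => exact Commute.one_left _
        | mul a b _ _ ha hb => exact ha.mul_left hb
        | inv a _ ha => exact ha.inv_left
      have hgd : Commute d g := h1 d (by rw [hcl]; exact self_mem_cent d)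
      have hgc : g ∈ Subgroup.centralizer ({d} : Set G) := Subgroup.mem_centralizer_singleton_iff.2 hgd.eq.symm
      have hgc' : g ∈ Subgroup.closure (perp (conjugatesOf d) d) := by rw [hcl]; exact hgc
      have h2 : (⟨g, hgc'⟩ : ↥(Subgroup.closure (perp (conjugatesOf d) d))) ∈ Subgroup.center _ := by
        rw [FW.Dict.mem_center_iff']; exact hg
      by_contra hne
      push Not at hne
      have h3 : φ ⟨g, hgc⟩ ≠ 1 := by
        intro h4
        rcases D.ker _ h4 with h5 | h5
        · exact hne.1 (congrArg Subtype.val h5)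
        · exact hne.2 (congrArg Subtype.val h5)
      have hF4 : Fintype.card F = 4 := by rw [hF]; norm_num
      have hs := psu6_simple hF4
      apply psu6_noncomm hF4
      have h4 : Subgroup.center (PSU 6 F 2) = ⊤ := by
        rcases hs.eq_bot_or_eq_top_of_normal _ (inferInstance : (Subgroup.center (PSU 6 F 2)).Normal) with h5 | h5
        · exfalso
          apply h3
          rw [← Subgroup.mem_bot, ← h5, Subgroup.mem_center_iff]
          intro p
          obtain ⟨q, rfl⟩ := D.surj p
          have hq : (q : G) ∈ Subgroup.closure (perp (conjugatesOf d) d) := by rw [hcl]; exact q.2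
          rw [← map_mul, ← map_mul]
          congr 1
          apply Subtype.ext
          exact (h1 q hq).eq
        · exact h5
      intro a b
      have h5 : b ∈ Subgroup.center (PSU 6 F 2) := by rw [h4]; trivial
      exact Subgroup.mem_center_iff.1 h5 a
    intro x hx g hg
    obtain ⟨c, rfl⟩ := isConj_iff.1 (show IsConj d x from hx)
    rcases key (c⁻¹ * g * c) (by
      intro y hy
      have h3 : c * y * c⁻¹ ∈ perp (conjugatesOf d) (c * d * c⁻¹) := (perp_conj_iff hcj c).2 hy
      have h4 := comm_conj (g := c).2 (hg _ h3)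
      have e : c⁻¹ * (c * y * c⁻¹) * c = y := by group
      rwa [e] at h4) with h1 | h1
    · left
      have : g = c * (c⁻¹ * g * c) * c⁻¹ := by group
      rw [this, h1]; group
    · right
      have : g = c * (c⁻¹ * g * c) * c⁻¹ := by group
      rw [this, h1]

end main

end Cfsg.Agent.F22C
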