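import Cfsg.Agent.F22C.Conn
import Cfsg.Agent.FW.Uniq

/-!
# The class of the involution is a primitive class of 3-transpositions
-/

set_option autoImplicit false
set_option linter.unusedSectionVars false
set_option linter.unusedSimpArgs false

namespace Cfsg.Agent.F22C

open Finset Cfsg.Agent.Uni

open Cfsg.Agent.ThreeTransp (perp perp_conj_iff commute_conj_iff)

variable {G : Type*} [Group G] {D : Set G} [Finite G]

section loc

variable (h : Loc D)
include h

omit [Finite G] in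
/-- a commuting member has a noncommuting partner -/
theorem exists_nc_perp {d a : G} (hd : d ∈ D) (ha : a ∈ perp D d) : ∃ e ∈ perp D d, ¬ Commute a e := by
  obtain ⟨F, i1, i2, ⟨Δ⟩⟩ := h.dict d hd
  obtain ⟨w, hw0, hw, rfl⟩ := Δ.exists_pt ha
  obtain ⟨x, hx⟩ := exists_hyp' Δ.hF hw0 hw
  have hx0 : x ≠ 0 := by
    rintro rfl
    have := hx.2.2
    rw [hermForm_zero_right Δ.hF] at this
    exact zero_ne_one this
  refine ⟨Δ.pt x, Δ.pt_mem hx0 hx.2.1, ?_⟩
  rw [Δ.commute_pt hw0 hw hx0 hx.2.1, hx.2.2]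
  exact one_ne_zero

theorem perp_nonempty {d : G} (hd : d ∈ D) : (perp D d).Nonempty := by
  classical
  have hp := h.par
  obtain ⟨y, hy⟩ := card_pos.1 (by rw [hp.c1 d (FW.mem_DF.2 hd)]; norm_num : 0 < (FW.NF D d).card)
  exact ⟨y, FW.mem_NF.1 hy⟩

/-- the centraliser is transitive on the commuting members -/
theorem trans_perp {x y y' : G} (hx : x ∈ D) (hy : y ∈ perp D x) (hy' : y' ∈ perp D x) :
    ∃ g : G, g * x * g⁻¹ = x ∧ g * y * g⁻¹ = y' := by
  obtain ⟨z, hz, hn⟩ := exists_nc_perp h hx hy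
  obtain ⟨z', hz', hn'⟩ := exists_nc_perp h hx hy'
  obtain ⟨a, b, q⟩ := h.ext3 hx hy hz hn
  obtain ⟨a', b', q'⟩ := h.ext3 hx hy' hz' hn'
  obtain ⟨g, g1, g2, -, -, -⟩ := h.trans5 q q'
  exact ⟨g, g1, g2⟩

end loc

variable (h : LocP D)
include h

theorem exists_common {a b : G} (ha : a ∈ D) (hb : b ∈ D) (hn : ¬ Commute a b) : ∃ t ∈ D, a ∈ perp D t ∧ b ∈ perp D t := by
  rcases (all_mem h ha hb).2 with e | e | ⟨t, h1, h2⟩
  · exact absurd (e ▸ Commute.refl a) hn
  · exact absurd e.2.2 hn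
  · exact ⟨t, h1.1, perp_symm ha h1, perp_symm hb h2⟩

theorem trans_nc {a b a' b' : G} (ha : a ∈ D) (hb : b ∈ D) (hn : ¬ Commute a b) (ha' : a' ∈ D) (hb' : b' ∈ D)
    (hn' : ¬ Commute a' b') : ∃ g : G, g * a * g⁻¹ = a' ∧ g * b * g⁻¹ = b' := by
  obtain ⟨t, ht, h1, h2⟩ := exists_common h ha hb hn
  obtain ⟨t', ht', h1', h2'⟩ := exists_common h ha' hb' hn'
  obtain ⟨x, y, q⟩ := h.toLoc.ext3 ht h1 h2 hn
  obtain ⟨x', y', q'⟩ := h.toLoc.ext3 ht' h1' h2' hn'
  obtain ⟨g, -, g2, g3, -, -⟩ := h.toLoc.trans5 q q'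
  exact ⟨g, g2, g3⟩

theorem mem_braid {a b : G} (ha : a ∈ D) (hb : b ∈ D) (hn : ¬ Commute a b) : a * b * a = b * a * b := by
  obtain ⟨t, ht, h1, h2⟩ := exists_common h ha hb hn
  exact h.toLoc.braid2 ht h1 h2 hn

theorem isSet : Cfsg.IsThreeTranspositionSet D := by
  refine ⟨fun d hd => orderOf_eq_prime (by rw [sq]; exact h.sq d hd) (h.ne d hd), fun d hd e he => ?_⟩
  by_cases hc : Commute d e
  · left
    rw [hc.mul_pow, sq, sq, h.sq d hd, h.sq e he, one_mul]
  · right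
    have hb := mem_braid h hd he hc
    calc (d * e) ^ 3 = (d * e * d) * (e * d * e) := by rw [pow_succ, sq]; group
      _ = (d * e * d) * (d * e * d) := by rw [hb]
      _ = d * e * (d * d) * e * d := by group
      _ = d * (e * e) * d := by rw [h.sq d hd]; group
      _ = 1 := by rw [h.sq e he, mul_one, h.sq d hd]

theorem closure_top : Subgroup.closure D = ⊤ := by
  obtain ⟨x, hx⟩ := h.nonempty
  rw [eq_top_iff]
  intro g _
  have h1 : g ∈ St D x := (mem_St h.toLoc hx).2 (all_mem h hx (h.conj g x hx))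
  exact Subgroup.closure_mono (fun z hz => hz.1) h1

theorem isGroup : Cfsg.IsThreeTranspositionGroup D := ⟨isSet h, h.conj, closure_top h⟩

theorem isPrim : Cfsg.IsPrimitiveUnderConj D := by
  obtain ⟨x, hx⟩ := h.nonempty
  obtain ⟨y, hy⟩ := perp_nonempty h.toLoc hx
  refine ⟨fun a ha b hb => h.trans a ha b hb, ⟨x, hx, y, hy.1, hy.2.1.symm⟩, fun B hB hblk => ?_⟩
  -- an element of the block together with a pair
  have hmove : ∀ a ∈ B, ∀ b ∈ B, ∀ g : G, g * a * g⁻¹ = a → g * b * g⁻¹ ∈ B := by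
    intro a ha b hb g hg
    rcases hblk g with h1 | h1
    · rw [← h1]; exact ⟨b, hb, rfl⟩
    · exact absurd ha (Set.disjoint_left.1 h1 ⟨a, ha, hg⟩)
  by_cases hs : B.Subsingleton
  · exact Or.inl hs
  right
  have key : ∀ a ∈ B, ∀ b ∈ B, b ∈ perp D a → B = D := by
    intro a ha b hb hab
    have hperp : ∀ a ∈ B, ∀ b ∈ B, b ∈ perp D a → ∀ z ∈ perp D a, z ∈ B := by
      intro a ha b hb hab z hz
      obtain ⟨g, g1, g2⟩ := trans_perp h.toLoc (hB ha) hab hz
      rw [← g2]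
      exact hmove a ha b hb g g1
    apply Set.Subset.antisymm hB
    intro z hz
    rcases (all_mem h (hB ha) hz).2 with e | e | ⟨t, h1, h2⟩
    · rw [← e]; exact ha
    · exact hperp a ha b hb hab z e
    · have ht : t ∈ B := hperp a ha b hb hab t h1
      exact hperp t ht a ha (perp_symm (hB ha) h1) z (perp_symm hz h2)
  obtain ⟨a, ha, b, hb, hab⟩ := Set.not_subsingleton_iff.1 hs
  by_cases hc : Commute a b
  · exact key a ha b hb ⟨hB hb, Ne.symm hab, hc⟩
  · -- a commuting pair in the block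
    obtain ⟨t, ht, n1, n2⟩ := exists_nc2 h.toLoc hx hy
    obtain ⟨g, g1, g2⟩ := trans_nc h ht.1 hx (fun hh => n1 hh.symm) (hB ha) (hB hb) hc
    have hy' : g * y * g⁻¹ ∈ perp D b := by
      rw [← g2]; exact (perp_conj_iff h.conj g).2 hy
    have hn' : ¬ Commute a (g * y * g⁻¹) := by
      rw [← g1, commute_conj_iff]; exact fun hh => n2 hh.symm
    obtain ⟨k, k1, k2⟩ := trans_nc h (hB ha) (hB hb) hc (hB ha) hy'.1 hn'
    have h5 : g * y * g⁻¹ ∈ B := by
      rw [← k2]; exact hmove a ha b hb k k1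
    exact key b hb _ h5 hy'

theorem t22 : FW.T22 G D := by
  obtain ⟨x, hx⟩ := h.nonempty
  obtain ⟨y, hy⟩ := perp_nonempty h.toLoc hx
  obtain ⟨t, ht, n1, n2⟩ := exists_nc2 h.toLoc hx hy
  obtain ⟨F, i1, i2, ⟨Δ⟩⟩ := h.dict x hx
  refine ⟨?_, x, hx, t, ht.1, n1, ⟨F, i1, i2, by rw [Δ.hF]; norm_num, ?_⟩, trivial⟩
  · rw [Subgroup.eq_bot_iff_forall]
    intro z hz
    have hz' := Subgroup.mem_center_iff.1 hz
    rcases h.cen x hx z (fun y _ => hz' y) with h1 | h1
    · exact h1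
    · exfalso
      apply n1
      rw [← h1]
      exact (hz' t).symm
  · exact ⟨(QuotientGroup.quotientMulEquivOfEq Δ.ker.symm).trans (QuotientGroup.quotientKerEquivOfSurjective Δ.ψ Δ.surj)⟩

theorem h22 : FW.H22 D := FW.H22.of_primitive (isGroup h) (isPrim h) (t22 h)

end Cfsg.Agent.F22C
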