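import Cfsg.Agent.F22C.Loc2
import Cfsg.Agent.FW.Count22

/-!
# Local parameters
-/

set_option autoImplicit false
set_option linter.unusedSectionVars false
set_option linter.unusedSimpArgs false

namespace Cfsg.Agent.F22C

open Finset Matrix Module Cfsg.Agent.Uni Cfsg.Agent.UDbl Cfsg.Agent.ThreeTransp

open Cfsg.Agent.Fi22 hiding DF NF mem_DF mem_NF gr isTI_one isTI_two cnt_six cnt_four cnt_two card_all card_perp_one card_perp_two card_hyp_perp card_hyp_perp_one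

open Cfsg.Agent.FW (DF NF mem_DF mem_NF gr isTI_one isTI_two cnt_six cnt_four cnt_two card_all card_perp_one card_perp_two card_hyp_perp card_hyp_perp_one)

variable {G : Type*} [Group G] {D : Set G}

namespace Loc

variable [Finite G] (h : Loc D)

include h

open Classical in
theorem par : Fi22.Comb.Par (DF D) (NF D) 693 180 51 45 12 where
  toGr := gr D
  c1 := by
    intro x hx
    rw [mem_DF] at hx
    obtain ⟨F, i1, i2, ⟨Δ⟩⟩ := h.dict x hx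
    have h1 := Δ.card_pts (NF D x) (fun y hy => mem_NF.1 hy)
    have h2 : Nat.card {w : Fin 6 → F // w ≠ 0 ∧ hermForm 6 F 2 w w = 0 ∧ Δ.pt w ∈ NF D x} = 2079 := by
      rw [← cnt_six Δ.hF, ← card_all Δ.hF]
      refine Nat.card_congr (Equiv.subtypeEquivRight fun w => ?_)
      exact ⟨fun hh => ⟨hh.1, hh.2.1⟩, fun hh => ⟨hh.1, hh.2, mem_NF.2 (Δ.pt_mem hh.1 hh.2)⟩⟩
    omega
  c2 := by
    intro x hx y hy
    rw [mem_DF] at hx
    rw [mem_NF] at hy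
    obtain ⟨F, i1, i2, ⟨Δ⟩⟩ := h.dict x hx
    have hF := Δ.hF
    obtain ⟨u, hu0, hu, rfl⟩ := Δ.exists_pt hy
    have h1 := Δ.card_pts (NF D x ∩ NF D (Δ.pt u)) (fun y hy => mem_NF.1 (mem_inter.1 hy).1)
    have h2 : Nat.card {w : Fin 6 → F // w ≠ 0 ∧ hermForm 6 F 2 w w = 0 ∧ Δ.pt w ∈ NF D x ∩ NF D (Δ.pt u)} = 540 := by
      have h3 := card_perp_one hF (by norm_num) hu0 hu
      rw [show 6 - 2 = 4 by norm_num, cnt_four hF] at h3
      rw [show 540 = 4 * 135 by norm_num, ← h3]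
      refine Nat.card_congr (Equiv.subtypeEquivRight fun w => ?_)
      rw [mem_inter, mem_NF, mem_NF]
      constructor
      · rintro ⟨hw0, hw, h4, h5⟩
        refine ⟨(hermForm_eq_zero_comm hF).1 ((Δ.commute_pt hu0 hu hw0 hw).1 h5.2.2), hw, ?_⟩
        exact (Δ.pt_ne_iff hu0 hu hw0 hw).1 h5.2.1.symm
      · rintro ⟨h4, h5, h6⟩
        have hw0 : w ≠ 0 := by rintro rfl; exact h6 0 (by rw [zero_smul])
        have h7 := Δ.pt_mem hw0 h5
        exact ⟨hw0, h5, h7, h7.1, ((Δ.pt_ne_iff hu0 hu hw0 h5).2 h6).symm,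
          (Δ.commute_pt hu0 hu hw0 h5).2 ((hermForm_eq_zero_comm hF).1 h4)⟩
    omega
  c3 := by
    intro x hx y hy z hz hyz
    rw [mem_DF] at hx
    rw [mem_NF] at hy hz hyz
    obtain ⟨F, i1, i2, ⟨Δ⟩⟩ := h.dict x hx
    have hF := Δ.hF
    obtain ⟨u, hu0, hu, rfl⟩ := Δ.exists_pt hy
    obtain ⟨v, hv0, hv, rfl⟩ := Δ.exists_pt hz
    have huv := (Δ.commute_pt hu0 hu hv0 hv).1 hyz.2.2
    have hnp := (Δ.pt_ne_iff hu0 hu hv0 hv).1 hyz.2.1.symm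
    have h1 := Δ.card_pts (NF D x ∩ NF D (Δ.pt u) ∩ NF D (Δ.pt v)) (fun y hy => mem_NF.1 (mem_inter.1 (mem_inter.1 hy).1).1)
    have h2 : Nat.card {w : Fin 6 → F // w ≠ 0 ∧ hermForm 6 F 2 w w = 0 ∧
        Δ.pt w ∈ NF D x ∩ NF D (Δ.pt u) ∩ NF D (Δ.pt v)} = 153 := by
      have h3 := card_perp_two hF (by norm_num) hu0 hv0 hnp hu hv huv
      rw [show 6 - 4 = 2 by norm_num, cnt_two hF] at h3
      rw [show 153 = 16 * 9 + 9 by norm_num, ← h3]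
      refine Nat.card_congr (Equiv.subtypeEquivRight fun w => ?_)
      rw [mem_inter, mem_inter, mem_NF, mem_NF, mem_NF]
      constructor
      · rintro ⟨hw0, hw, ⟨h4, h5⟩, h6⟩
        exact ⟨hw0, (hermForm_eq_zero_comm hF).1 ((Δ.commute_pt hu0 hu hw0 hw).1 h5.2.2),
          (hermForm_eq_zero_comm hF).1 ((Δ.commute_pt hv0 hv hw0 hw).1 h6.2.2), hw,
          (Δ.pt_ne_iff hu0 hu hw0 hw).1 h5.2.1.symm, (Δ.pt_ne_iff hv0 hv hw0 hw).1 h6.2.1.symm⟩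
      · rintro ⟨hw0, h4, h5, hw, h6, h7⟩
        have h8 := Δ.pt_mem hw0 hw
        exact ⟨hw0, hw, ⟨h8, h8.1, ((Δ.pt_ne_iff hu0 hu hw0 hw).2 h6).symm,
          (Δ.commute_pt hu0 hu hw0 hw).2 ((hermForm_eq_zero_comm hF).1 h4)⟩, h8.1,
          ((Δ.pt_ne_iff hv0 hv hw0 hw).2 h7).symm, (Δ.commute_pt hv0 hv hw0 hw).2 ((hermForm_eq_zero_comm hF).1 h5)⟩
    omega
  m1 := by
    intro x hx y hy z hz hne hyz
    rw [mem_DF] at hx
    rw [mem_NF] at hy hz hyz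
    have hnc : ¬ Commute y z := fun hh => hyz ⟨hz.1, hne.symm, hh⟩
    obtain ⟨F, i1, i2, ⟨Δ⟩⟩ := h.dict x hx
    have hF := Δ.hF
    obtain ⟨u, hu0, hu, rfl⟩ := Δ.exists_pt hy
    obtain ⟨v, hv0, hv, rfl⟩ := Δ.exists_pt hz
    have huv : hermForm 6 F 2 u v ≠ 0 := fun hh => hnc ((Δ.commute_pt hu0 hu hv0 hv).2 hh)
    have h1 := Δ.card_pts (NF D x ∩ NF D (Δ.pt u) ∩ NF D (Δ.pt v)) (fun y hy => mem_NF.1 (mem_inter.1 (mem_inter.1 hy).1).1)
    have h2 : Nat.card {w : Fin 6 → F // w ≠ 0 ∧ hermForm 6 F 2 w w = 0 ∧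
        Δ.pt w ∈ NF D x ∩ NF D (Δ.pt u) ∩ NF D (Δ.pt v)} = 135 := by
      rw [← card_hyp_perp hF hu hv huv]
      refine Nat.card_congr (Equiv.subtypeEquivRight fun w => ?_)
      rw [mem_inter, mem_inter, mem_NF, mem_NF, mem_NF]
      constructor
      · rintro ⟨hw0, hw, ⟨h4, h5⟩, h6⟩
        exact ⟨hw0, hw, (hermForm_eq_zero_comm hF).1 ((Δ.commute_pt hu0 hu hw0 hw).1 h5.2.2),
          (hermForm_eq_zero_comm hF).1 ((Δ.commute_pt hv0 hv hw0 hw).1 h6.2.2)⟩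
      · rintro ⟨hw0, hw, h4, h5⟩
        have h8 := Δ.pt_mem hw0 hw
        have hcu := (Δ.commute_pt hu0 hu hw0 hw).2 ((hermForm_eq_zero_comm hF).1 h4)
        have hcv := (Δ.commute_pt hv0 hv hw0 hw).2 ((hermForm_eq_zero_comm hF).1 h5)
        refine ⟨hw0, hw, ⟨h8, h8.1, ?_, hcu⟩, h8.1, ?_, hcv⟩
        · intro he; rw [he] at hcv; exact hnc hcv.symm
        · intro he; rw [he] at hcu; exact hnc hcu
    omega
  m2 := by
    intro x hx x' hx' y hy hyx' z hz hzx' hne hyz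
    rw [mem_DF] at hx
    rw [mem_NF] at hy hz hyz hx' hyx' hzx'
    have hnc : ¬ Commute y z := fun hh => hyz ⟨hz.1, hne.symm, hh⟩
    obtain ⟨F, i1, i2, ⟨Δ⟩⟩ := h.dict x hx
    have hF := Δ.hF
    obtain ⟨u, hu0, hu, rfl⟩ := Δ.exists_pt hy
    obtain ⟨v, hv0, hv, rfl⟩ := Δ.exists_pt hz
    obtain ⟨t, ht0, ht, rfl⟩ := Δ.exists_pt hx'
    have huv : hermForm 6 F 2 u v ≠ 0 := fun hh => hnc ((Δ.commute_pt hu0 hu hv0 hv).2 hh)
    have htu := (Δ.commute_pt ht0 ht hu0 hu).1 hyx'.2.2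
    have htv := (Δ.commute_pt ht0 ht hv0 hv).1 hzx'.2.2
    have h1 := Δ.card_pts (NF D x ∩ NF D (Δ.pt t) ∩ (NF D (Δ.pt u) ∩ NF D (Δ.pt v)))
      (fun y hy => mem_NF.1 (mem_inter.1 (mem_inter.1 hy).1).1)
    have h2 : Nat.card {w : Fin 6 → F // w ≠ 0 ∧ hermForm 6 F 2 w w = 0 ∧
        Δ.pt w ∈ NF D x ∩ NF D (Δ.pt t) ∩ (NF D (Δ.pt u) ∩ NF D (Δ.pt v))} = 36 := by
      rw [← card_hyp_perp_one hF hu hv huv ht0 ht htu htv]
      refine Nat.card_congr (Equiv.subtypeEquivRight fun w => ?_)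
      rw [mem_inter, mem_inter, mem_inter, mem_NF, mem_NF, mem_NF, mem_NF]
      constructor
      · rintro ⟨hw0, hw, ⟨h4, h7⟩, h5, h6⟩
        exact ⟨hw, (hermForm_eq_zero_comm hF).1 ((Δ.commute_pt hu0 hu hw0 hw).1 h5.2.2),
          (hermForm_eq_zero_comm hF).1 ((Δ.commute_pt hv0 hv hw0 hw).1 h6.2.2),
          (hermForm_eq_zero_comm hF).1 ((Δ.commute_pt ht0 ht hw0 hw).1 h7.2.2),
          (Δ.pt_ne_iff ht0 ht hw0 hw).1 h7.2.1.symm⟩
      · rintro ⟨hw, h4, h5, h6, h7⟩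
        have hw0 : w ≠ 0 := by rintro rfl; exact h7 0 (by rw [zero_smul])
        have h8 := Δ.pt_mem hw0 hw
        have hcu := (Δ.commute_pt hu0 hu hw0 hw).2 ((hermForm_eq_zero_comm hF).1 h4)
        have hcv := (Δ.commute_pt hv0 hv hw0 hw).2 ((hermForm_eq_zero_comm hF).1 h5)
        have hct := (Δ.commute_pt ht0 ht hw0 hw).2 ((hermForm_eq_zero_comm hF).1 h6)
        refine ⟨hw0, hw, ⟨h8, h8.1, ((Δ.pt_ne_iff ht0 ht hw0 hw).2 h7).symm, hct⟩, ⟨h8.1, ?_, hcu⟩, h8.1, ?_, hcv⟩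
        · intro he; rw [he] at hcv; exact hnc hcv.symm
        · intro he; rw [he] at hcu; exact hnc hcu
    omega


end Loc

end Cfsg.Agent.F22C
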