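import Cfsg.Agent.F22C.Main

/-!
# From the centraliser to the local hypothesis
-/

set_option autoImplicit false
set_option linter.unusedSectionVars false
set_option linter.unusedSimpArgs false

namespace Cfsg.Agent.F22C

open Cfsg.Agent

theorem commutator_map_top {H K : Type*} [Group H] [Group K] (f : H →* K) (hf : Function.Surjective f)
    (hH : commutator H = ⊤) : commutator K = ⊤ := by
  have h1 := Subgroup.map_commutator (⊤ : Subgroup H) ⊤ f
  rw [Subgroup.map_top_of_surjective f hf] at h1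
  rw [commutator_def] at hH ⊢
  rw [← h1, hH, Subgroup.map_top_of_surjective f hf]

theorem commutator_centralizer_conj {G : Type*} [Group G] {d : G} (g : G)
    (h : commutator ↥(Subgroup.centralizer ({d} : Set G)) = ⊤) :
    commutator ↥(Subgroup.centralizer ({g * d * g⁻¹} : Set G)) = ⊤ := by
  have hm : ∀ x : G, x ∈ Subgroup.centralizer ({d} : Set G) → g * x * g⁻¹ ∈ Subgroup.centralizer ({g * d * g⁻¹} : Set G) := by
    intro x hx
    rw [Subgroup.mem_centralizer_singleton_iff] at hx ⊢
    calc g * x * g⁻¹ * (g * d * g⁻¹) = g * (x * d) * g⁻¹ := by group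
      _ = g * (d * x) * g⁻¹ := by rw [hx]
      _ = g * d * g⁻¹ * (g * x * g⁻¹) := by group
  let f : ↥(Subgroup.centralizer ({d} : Set G)) →* ↥(Subgroup.centralizer ({g * d * g⁻¹} : Set G)) :=
    MonoidHom.mk' (fun x => ⟨g * x * g⁻¹, hm x x.2⟩) (fun a b => Subtype.ext (by
      change g * ((a : G) * (b : G)) * g⁻¹ = (g * a * g⁻¹) * (g * b * g⁻¹)
      group))
  refine commutator_map_top f ?_ h
  rintro ⟨y, hy⟩
  refine ⟨⟨g⁻¹ * y * g, ?_⟩, Subtype.ext ?_⟩
  · rw [Subgroup.mem_centralizer_singleton_iff] at hy ⊢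
    calc g⁻¹ * y * g * d = g⁻¹ * (y * (g * d * g⁻¹)) * g := by group
      _ = g⁻¹ * ((g * d * g⁻¹) * y) * g := by rw [hy]
      _ = d * (g⁻¹ * y * g) := by group
  · change g * (g⁻¹ * y * g) * g⁻¹ = y
    group

theorem locP {G : Type*} [Group G] [Finite G] (d : G) (hd : orderOf d = 2)
    (hq : Cfsg.IsQuasisimple (Subgroup.centralizer ({d} : Set G)))
    [((Subgroup.zpowers d).subgroupOf (Subgroup.centralizer ({d} : Set G))).Normal] (K : Type) [Field K] [Fintype K]
    (hK : Fintype.card K = 4)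
    (e : (Subgroup.centralizer ({d} : Set G)) ⧸ (Subgroup.zpowers d).subgroupOf (Subgroup.centralizer ({d} : Set G)) ≃*
      Cfsg.PSU 6 K 2)
    (hnwc : ∃ g : G, g * d * g⁻¹ ∈ Subgroup.centralizer ({d} : Set G) ∧ g * d * g⁻¹ ≠ d) :
    LocP (conjugatesOf d) := by
  have hF : Fintype.card K = 2 ^ 2 := by rw [hK]; norm_num
  have hdd : d * d = 1 := by
    have := pow_orderOf_eq_one d
    rwa [hd, sq] at this
  have hd1 : d ≠ 1 := by
    rintro rfl
    rw [orderOf_one] at hd
    omega
  have hmem : ∀ g : G, g ∈ Subgroup.zpowers d ↔ g = 1 ∨ g = d := by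
    intro g
    constructor
    · rintro ⟨k, rfl⟩
      rcases Int.even_or_odd' k with ⟨m, rfl | rfl⟩
      · left
        show d ^ (2 * m) = 1
        rw [zpow_mul, zpow_ofNat, sq, hdd, one_zpow]
      · right
        show d ^ (2 * m + 1) = d
        rw [zpow_add_one, zpow_mul, zpow_ofNat, sq, hdd, one_zpow, one_mul]
    · rintro (rfl | h)
      · exact one_mem _
      · rw [h]; exact Subgroup.mem_zpowers d
  have hdC : d ∈ Subgroup.centralizer ({d} : Set G) := by
    rw [Subgroup.mem_centralizer_iff]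
    rintro _ rfl
    rfl
  let N := (Subgroup.zpowers d).subgroupOf (Subgroup.centralizer ({d} : Set G))
  have hN : ∀ y : ↥(Subgroup.centralizer ({d} : Set G)), y ∈ N ↔ (y = 1 ∨ y = ⟨d, hdC⟩) := by
    intro y
    rw [Subgroup.mem_subgroupOf, hmem]
    constructor
    · rintro (h | h)
      · left; exact Subtype.ext h
      · right; exact Subtype.ext h
    · rintro (rfl | rfl)
      · left; rfl
      · right; rfl
  let φ : ↥(Subgroup.centralizer ({d} : Set G)) →* Cfsg.PSU 6 K 2 :=
    e.toMonoidHom.comp (QuotientGroup.mk' N)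
  have hφ : ∀ y, φ y = e (QuotientGroup.mk y) := fun _ => rfl
  have hker : ∀ y, φ y = 1 ↔ y ∈ N := by
    intro y
    rw [hφ, ← map_one e, e.injective.eq_iff]
    exact QuotientGroup.eq_one_iff y
  have D : UDbl.Dbl φ (⟨d, hdC⟩ : ↥(Subgroup.centralizer ({d} : Set G))) := by
    refine ⟨?_, ?_, ?_, ?_, ?_, ?_⟩
    · intro h
      apply Subtype.ext
      exact (Subgroup.mem_centralizer_iff.1 h.2 d rfl)
    · exact Subtype.ext hdd
    · intro h
      exact hd1 (congrArg Subtype.val h)
    · intro x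
      obtain ⟨x', rfl⟩ := e.surjective x
      obtain ⟨y, rfl⟩ := QuotientGroup.mk_surjective x'
      exact ⟨y, rfl⟩
    · intro h hh
      exact (hN h).1 ((hker h).1 hh)
    · exact (hker _).2 ((hN _).2 (Or.inr rfl))
  have hperf : commutator ↥(Subgroup.centralizer ({d} : Set G)) = ⊤ := hq.1.commutator_eq_top
  have D' : UDbl.Dbl φ (UTh.zC d) := D
  refine ⟨loc hF D' hnwc hperf, ?_⟩
  intro x hx
  obtain ⟨c, rfl⟩ := isConj_iff.1 (show IsConj d x from hx)
  exact commutator_centralizer_conj c hperf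

end Cfsg.Agent.F22C
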