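import Cfsg.Agent.F22C.Comp

/-!
# The stabiliser of a component
-/

set_option autoImplicit false
set_option linter.unusedSectionVars false
set_option linter.unusedSimpArgs false

namespace Cfsg.Agent.F22C

open Finset Cfsg.Agent.Uni

open Cfsg.Agent.ThreeTransp (perp perp_conj_iff commute_conj_iff)

open Cfsg.Agent.FW (DF NF mem_DF mem_NF mem_NF' nc_iff)

variable {G : Type*} [Group G] {D : Set G}

/-- the local hypothesis with perfect centralisers -/
structure LocP {G : Type*} [Group G] (D : Set G) : Prop extends Loc D where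
  perf : ∀ d ∈ D, commutator ↥(Subgroup.centralizer ({d} : Set G)) = ⊤

theorem conj_of_braid {x y : G} (h : x * y * x = y * x * y) : (x * y) * x * (x * y)⁻¹ = y := by
  calc x * y * x * (x * y)⁻¹ = (x * y * x) * y⁻¹ * x⁻¹ := by group
    _ = (y * x * y) * y⁻¹ * x⁻¹ := by rw [h]
    _ = y := by group

/-- the group generated by a component -/
def St (D : Set G) (x : G) : Subgroup G := Subgroup.closure (Sig D x)

variable [Finite G]

section loc

variable (h : Loc D)
include h

theorem Sig_conj_self {x y z : G} (hx : x ∈ D) (hy : y ∈ Sig D x) (hz : z ∈ Sig D x) : y * z * y⁻¹ ∈ Sig D x := by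
  have h1 : y ∈ Sig D z := by rw [Sig_eq h hx hz]; exact hy
  have h2 := conj_Sig h h1 y
  rw [mul_inv_cancel_right] at h2
  have h3 : y * z * y⁻¹ ∈ D := h.conj y z hz.1
  have h4 := Sig_symm h h3 h2
  rw [Sig_eq h hx hy] at h4
  exact h4

theorem St_conj {x g : G} (hx : x ∈ D) (hg : g ∈ St D x) :
    (∀ z ∈ Sig D x, g * z * g⁻¹ ∈ Sig D x) ∧ (∀ z ∈ Sig D x, g⁻¹ * z * g ∈ Sig D x) := by
  induction hg using Subgroup.closure_induction with
  | mem y hy =>
    refine ⟨fun z hz => Sig_conj_self h hx hy hz, fun z hz => ?_⟩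
    have h1 := Sig_conj_self h hx hy hz
    rw [h.inv hy.1] at h1 ⊢
    exact h1
  | one => exact ⟨fun z hz => by simpa using hz, fun z hz => by simpa using hz⟩
  | mul a b _ _ ha hb =>
    refine ⟨fun z hz => ?_, fun z hz => ?_⟩
    · have h1 := ha.1 _ (hb.1 z hz)
      have e : a * b * z * (a * b)⁻¹ = a * (b * z * b⁻¹) * a⁻¹ := by group
      rw [e]; exact h1
    · have h1 := hb.2 _ (ha.2 z hz)
      have e : (a * b)⁻¹ * z * (a * b) = b⁻¹ * (a⁻¹ * z * a) * b := by group
      rw [e]; exact h1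
  | inv a _ ha =>
    refine ⟨fun z hz => ?_, fun z hz => ?_⟩
    · have h1 := ha.2 z hz
      rw [inv_inv]; exact h1
    · have h1 := ha.1 z hz
      rw [inv_inv]; exact h1

theorem cent_le_St {x : G} (hx : x ∈ D) : Subgroup.centralizer ({x} : Set G) ≤ St D x := by
  rw [h.cent x hx]
  exact Subgroup.closure_mono fun y hy => perp_sub_Sig hy

theorem St_eq {x z : G} (hx : x ∈ D) (hz : z ∈ Sig D x) : St D z = St D x := by
  rw [St, St, Sig_eq h hx hz]

theorem St_trans {x y : G} (hx : x ∈ D) (hy : y ∈ Sig D x) : ∃ f ∈ St D x, f * x * f⁻¹ = y := by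
  have hxs := self_mem_Sig hx
  by_cases hc : Commute x y
  · by_cases hxy : x = y
    · exact ⟨1, one_mem _, by rw [hxy]; group⟩
    have hyp : y ∈ perp D x := ⟨hy.1, Ne.symm hxy, hc⟩
    obtain ⟨t, ht, h1, h2⟩ := exists_nc2 h hx hyp
    have b1 := Sig_braid h hxs ht hx h1
    have b2 := Sig_braid h ht hy hx (fun hh => h2 hh.symm)
    refine ⟨(t * y) * (x * t), mul_mem (mul_mem (Subgroup.subset_closure ht) (Subgroup.subset_closure hy))
      (mul_mem (Subgroup.subset_closure hxs) (Subgroup.subset_closure ht)), ?_⟩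
    have e : t * y * (x * t) * x * (t * y * (x * t))⁻¹ = (t * y) * ((x * t) * x * (x * t)⁻¹) * (t * y)⁻¹ := by group
    rw [e, conj_of_braid b1, conj_of_braid b2]
  · exact ⟨x * y, mul_mem (Subgroup.subset_closure hxs) (Subgroup.subset_closure hy),
      conj_of_braid (Sig_braid h hxs hy hx hc)⟩

theorem mem_St {x g : G} (hx : x ∈ D) : g ∈ St D x ↔ g * x * g⁻¹ ∈ Sig D x := by
  constructor
  · intro hg
    exact (St_conj h hx hg).1 x (self_mem_Sig hx)
  · intro hg
    obtain ⟨f, hf, hfx⟩ := St_trans h hx hg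
    have h1 : f⁻¹ * g ∈ Subgroup.centralizer ({x} : Set G) := by
      rw [Subgroup.mem_centralizer_singleton_iff]
      have : f⁻¹ * g * x * (f⁻¹ * g)⁻¹ = x := by
        calc f⁻¹ * g * x * (f⁻¹ * g)⁻¹ = f⁻¹ * (g * x * g⁻¹) * f := by group
          _ = f⁻¹ * (f * x * f⁻¹) * f := by rw [hfx]
          _ = x := by group
      exact mul_inv_eq_iff_eq_mul.1 this
    have h2 : g = f * (f⁻¹ * g) := by group
    rw [h2]
    exact mul_mem hf (cent_le_St h hx h1)

/-- the action on the component -/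
noncomputable def actSig {x : G} (hx : x ∈ D) : MulAction ↥(St D x) ↥(Sig D x) where
  smul g z := ⟨(g : G) * z * (g : G)⁻¹, (St_conj h hx g.2).1 z z.2⟩
  one_smul z := Subtype.ext (by show (1 : G) * (z : G) * (1 : G)⁻¹ = z; group)
  mul_smul a b z := Subtype.ext (by
    show ((a : G) * (b : G)) * (z : G) * ((a : G) * (b : G))⁻¹ = (a : G) * ((b : G) * z * (b : G)⁻¹) * (a : G)⁻¹
    group)

end loc

variable (h : LocP D)
include h

/-- an involution of the stabiliser commutes with some member of the component -/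
theorem exists_comm {x t : G} (hx : x ∈ D) (ht : t ∈ St D x) (htt : t * t = 1) : ∃ y ∈ Sig D x, Commute y t := by
  classical
  haveI := Fintype.ofFinite ↥(Sig D x)
  letI : MulAction ↥(St D x) ↥(Sig D x) := actSig h.toLoc hx
  have hsm : ∀ (g : ↥(St D x)) (z : ↥(Sig D x)), ((g • z : ↥(Sig D x)) : G) = (g : G) * z * (g : G)⁻¹ := fun _ _ => rfl
  set f : ↥(St D x) →* ℤˣ := (Equiv.Perm.sign).comp (MulAction.toPermHom ↥(St D x) ↥(Sig D x)) with hf
  have hker : ∀ g : ↥(St D x), f g = 1 := by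
    have h1 : St D x ≤ f.ker.map (St D x).subtype := by
      refine (Subgroup.closure_le _).2 ?_
      intro y hy
      have hCy : Subgroup.centralizer ({y} : Set G) ≤ St D x := by
        rw [← St_eq h.toLoc hx hy]
        exact cent_le_St h.toLoc hy.1
      have hyc : y ∈ Subgroup.centralizer ({y} : Set G) := by
        rw [Subgroup.mem_centralizer_singleton_iff]
      refine ⟨⟨y, hCy hyc⟩, ?_, rfl⟩
      rw [SetLike.mem_coe, MonoidHom.mem_ker]
      have h2 := Abelianization.commutator_subset_ker (f.comp (Subgroup.inclusion hCy))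
      rw [h.perf y hy.1] at h2
      have h3 := h2 (Subgroup.mem_top (⟨y, hyc⟩ : ↥(Subgroup.centralizer ({y} : Set G))))
      exact h3
    intro g
    obtain ⟨g', hg', hgg⟩ := h1 g.2
    have : g' = g := Subtype.ext hgg
    rw [← this]; exact hg'
  by_contra hcon
  push Not at hcon
  set σ : Equiv.Perm ↥(Sig D x) := MulAction.toPermHom ↥(St D x) ↥(Sig D x) ⟨t, ht⟩ with hσ
  have hσ2 : σ ^ 2 = 1 := by
    rw [hσ, ← map_pow]
    have : (⟨t, ht⟩ : ↥(St D x)) ^ 2 = 1 := Subtype.ext (by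
      show ((⟨t, ht⟩ : ↥(St D x)) ^ 2 : ↥(St D x)).1 = 1
      rw [Subgroup.coe_pow, sq]; exact htt)
    rw [this, map_one]
  have h1 := Equiv.Perm.sign_of_pow_two_eq_one hσ2
  have h2 : Equiv.Perm.sign σ = 1 := hker ⟨t, ht⟩
  have h3 : Fintype.card (Function.fixedPoints σ) = 0 := by
    rw [Fintype.card_eq_zero_iff]
    refine ⟨fun z => ?_⟩
    have h4 : t * (z.1 : G) * t⁻¹ = z.1 := congrArg Subtype.val z.2
    apply hcon z.1 z.1.2
    exact (mul_inv_eq_iff_eq_mul.1 h4).symm
  have h4 : Fintype.card ↥(Sig D x) = 3510 := by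
    rw [← Nat.card_eq_fintype_card]; exact card_Sig h.toLoc hx
  rw [h2, h3, h4] at h1
  have h5 : ((-1 : ℤˣ)) ^ ((3510 - 0) / 2) = -1 := by
    have : Odd ((3510 - 0) / 2) := ⟨877, rfl⟩
    exact this.neg_one_pow
  rw [h5] at h1
  exact absurd h1 (by decide)

theorem mem_Sig_of_mem {x b : G} (hx : x ∈ D) (hb : b ∈ D) (hbs : b ∈ St D x) : b ∈ Sig D x := by
  obtain ⟨y, hy, hyb⟩ := exists_comm h hx hbs (h.sq b hb)
  by_cases e : b = y
  · rw [e]; exact hy
  · rw [← Sig_eq h.toLoc hx hy]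
    exact perp_sub_Sig ⟨hb, e, hyb⟩

end Cfsg.Agent.F22C
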